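import Cfsg.Agent.H53.C11Spec
import Cfsg.Agent.H72.C6B

/-! Tower C11, job HG1: homologies force `SL`. -/

set_option autoImplicit false
set_option linter.unusedSectionVars false

namespace H61.C11

open Matrix hiding mul_inv_rev
open Cfsg.Geo H25 Equiv H53.C6

universe u

variable {F : Type u} [Field F]

theorem conj_hm {ι : Type} [Fintype ι] [DecidableEq ι] (g : GL ι F) (i : ι) (ζ : Fˣ) :
    (g * hm i ζ * g⁻¹).val =
      1 + ((ζ : F) - 1) • vecMulVec (g.val *ᵥ Pi.single i 1) (Pi.single i 1 ᵥ* g⁻¹.val) := by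
  have : (Pi.single i ((ζ : F) - 1) : ι → F) = ((ζ : F) - 1) • Pi.single i 1 := by
    rw [← Pi.single_smul, smul_eq_mul, mul_one]
  rw [Units.val_mul, Units.val_mul, hm_val, mul_add, add_mul, mul_one, Units.mul_inv, mul_vecMulVec,
    vecMulVec_mul, this, smul_vecMul, vecMulVec_smul]

variable [Finite F] {r : ℕ} [NeZero r] {ω : Fˣ} {G : Subgroup (GL (ZMod r) F)}

theorem conj_Ph (h : orderOf ω = r) (ξ : Fˣ) : (Ph r ω * hm 0 ξ * (Ph r ω)⁻¹).val =
    1 + (((ξ : F) - 1) * (r : F)⁻¹) • vecMulVec 1 1 := by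
  have h1 : (Ph r ω).val *ᵥ Pi.single 0 1 = 1 := by
    ext i; simp [Ph_apply h]
  have h2 : ((r : F)⁻¹ • (1 : ZMod r → F)) ᵥ* (Ph r ω).val = Pi.single 0 1 := by
    ext j
    simp only [vecMul, dotProduct, Ph_apply h, Pi.smul_apply, Pi.one_apply, smul_eq_mul, mul_one,
      ← Finset.mul_sum, mul_comm _ j, H72.C6T.sumw h, Pi.single_apply]
    split_ifs
    · exact inv_mul_cancel₀ (cast_ne_zero h)
    · exact mul_zero _
  rw [conj_hm, h1, ← h2, vecMul_vecMul, Units.mul_inv, vecMul_one, vecMulVec_smul, smul_smul]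

theorem core (dk : JobDKb.{u}) (el : JobEL1.{u}) (hf : Fld1 r ω) (hb : Base ω G) {ζ : Fˣ}
    (hG : hm 0 ζ ∈ G) (z2 : (ζ : F) ^ 2 ≠ 1) {ρ : GL (ZMod r) F} (hρ : ρ ∈ G) {v φ : ZMod r → F}
    (e : ρ.val = 1 + ((ζ : F) - 1) • vecMulVec v φ) (e1 : φ ⬝ᵥ v = 1) {c : F} (hc : v 0 * φ 0 = c)
    (c0 : c ≠ 0) (c1 : c ≠ 1) (hy : (∀ m, 1 ≤ m → m ≤ 5 → (ζ : F) ^ m ≠ 1) ∨
      ∃ T : F, 2 - (2 - ζ - (ζ : F)⁻¹) * (1 - c) = T ∧ T ≠ 0 ∧ T ^ 2 ≠ 1 ∧ T ^ 2 ≠ 2 ∧
        T ^ 4 - 3 * T ^ 2 + 1 ≠ 0) : Big G := by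
  have z0 := ζ.ne_zero
  have z1 : (ζ : F) - 1 ≠ 0 := fun c => z2 (by linear_combination (ζ + 1 : F) * c)
  let e0 : ZMod r → F := Pi.single 0 1
  let v' : ZMod r → F := v - v 0 • e0
  let B : Matrix (ZMod r) (Fin 2) F := of fun a j => ![e0 a, v' a] j
  have dv : ∀ ξ : Fˣ, (dg ![ξ, 1] : GL (Fin 2) F).val = !![(ξ : F), 0; 0, 1] := fun ξ => by
    rw [dg_val]
    ext a b; fin_cases a <;> fin_cases b <;> simp
  have d2 : ∀ ξ : Fˣ, hm 0 ξ ∈ G → dg ![ξ, 1] ∈ sec G B := fun ξ h => ⟨_, h, by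
    rw [H72.C6T.col2, dv, hm, dg_val]
    constructor <;> ext a <;> by_cases c : a = 0 <;> simp [c, e0, v', mulVec_diagonal]⟩
  let R : GL (Fin 2) F := GeneralLinearGroup.mkOfDetNeZero
    !![1 + (ζ - 1) * c, (ζ - 1) * (1 - c) * v 0; (ζ - 1) * φ 0, 1 + (ζ - 1) * (1 - c)] (by
      rw [det_fin_two_of]
      exact fun h => z0 (by linear_combination h + ((ζ : F) - 1) ^ 2 * (1 - c) * hc))
  have a1 : R.val =
    !![1 + (ζ - 1) * c, (ζ - 1) * (1 - c) * v 0; (ζ - 1) * φ 0, 1 + (ζ - 1) * (1 - c)] := rfl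
  have a2 : R ∈ sec G B := ⟨_, hρ, by
    have p1 : φ ⬝ᵥ e0 = φ 0 := by simp [e0]
    have p2 : φ ⬝ᵥ v' = 1 - c := by
      rw [dotProduct_sub, dotProduct_smul, e1, p1, smul_eq_mul, hc]
    rw [H72.C6T.col2, e, a1]
    simp only [add_mulVec, one_mulVec, smul_mulVec, vecMulVec_mulVec, p1, p2]
    constructor <;> ext a <;> simp [v', ← hc] <;> ring⟩
  have r01 : R.val 0 1 ≠ 0 := by
    simpa [a1] using ⟨⟨z1, sub_ne_zero.2 c1.symm⟩, left_ne_zero_of_mul (hc ▸ c0)⟩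
  obtain ⟨y, y1, y2⟩ : ∃ y ∈ sec G B, ∀ m, 1 ≤ m → m ≤ 5 → y ^ m ∉ scalars (Fin 2) F := by
    rcases hy with hy | ⟨T, t, t1, t2, t3, t4⟩
    · refine ⟨_, d2 ζ hG, fun m a b e => ?_⟩
      rw [← map_pow] at e
      obtain ⟨k, hk⟩ := dg_mem_scalars.1 e
      have := (hk 0).trans (hk 1).symm
      exact hy m a b (by simpa using congrArg Units.val this)
    · have hi : hm 0 ζ⁻¹ ∈ G := by rw [hm, Pi.mulSingle_inv, map_inv]; exact G.inv_mem hG
      refine ⟨_, mul_mem a2 (d2 _ hi), pow_not_scalar (T := T) (D := 1) (.inl ?_) ?_ ?_ t1 t2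
        (by simpa using t3) (by simpa using t4)⟩
      · simpa [dv, a1] using r01
      · simp [dv, a1, ← t]; field_simp; ring
      · simp [dv, a1]; field_simp; linear_combination -((ζ : F) - 1) ^ 2 * (1 - c) * hc
  obtain ⟨k, k0, u, ⟨g, g1, g2⟩, hu⟩ := dk F _ ζ 1 _ R y hf.nsq (d2 ζ hG) (dv ζ)
    (by simpa only [one_pow] using z2) a2 r01
    (by simpa [a1] using ⟨z1, right_ne_zero_of_mul (hc ▸ c0)⟩) (by
      by_contra! h
      simp only [a1, of_apply, cons_val] at h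
      exact z2 (by linear_combination ((ζ : F) - 1) * (h.1 + h.2))) y1 y2
  rw [H72.C6T.col2, hu] at g2
  obtain ⟨ψ, p1, p2, p3⟩ := row_of_fix (κ := 1) (i := 0) (ζ := ζ) g1 (by simpa using hG)
    (.one_left _) (.one_left _) (fun e => z1 (by simp [e])) (g2.1.trans (by simp [e0])) (v := v')
    (by rw [g2.2]; simpa [e0] using k0)
  exact el F r ω G hf hb 0 ψ p1 p2 p3

theorem core2 (dk : JobDKb.{u}) (el : JobEL1.{u}) (hf : Fld1 r ω) (hb : Base ω G) {ζ ξ : Fˣ}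
    (hG : hm 0 ζ ∈ G) (hξ : hm 0 ξ ∈ G) (z2 : (ζ : F) ^ 2 ≠ 1) {c : F}
    (hc : 2 - ξ - (ξ : F)⁻¹ = 121 * c) (c0 : c ≠ 0) (c1 : c ≠ 1)
    (hy : (∀ m, 1 ≤ m → m ≤ 5 → (ζ : F) ^ m ≠ 1) ∨
      ∃ T : F, 2 - (2 - ζ - (ζ : F)⁻¹) * (1 - c) = T ∧ T ≠ 0 ∧ T ^ 2 ≠ 1 ∧ T ^ 2 ≠ 2 ∧
        T ^ 4 - 3 * T ^ 2 + 1 ≠ 0) : Big G := by
  have hg : Ph r ω * hm 0 ξ * (Ph r ω)⁻¹ ∈ G := G.mul_mem (G.mul_mem hb.ph hξ) (G.inv_mem hb.ph)
  have hi : (Ph r ω * hm 0 ξ * (Ph r ω)⁻¹)⁻¹ = Ph r ω * hm 0 ξ⁻¹ * (Ph r ω)⁻¹ := by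
    rw [hm, hm, Pi.mulSingle_inv, map_inv]; group
  refine core dk el hf hb hG z2 (G.mul_mem (G.mul_mem hg (hb.hm hG 1)) (G.inv_mem hg))
    (conj_hm _ 1 ζ) ?_ ?_ c0 c1 hy
  · rw [← dotProduct_mulVec, mulVec_mulVec, Units.inv_mul, one_mulVec]; simp
  · have r0 := cast_ne_zero hf.ord
    have r11 : (r : F) = 11 := by rw [hf.hr]; simp
    have o : (0 : ZMod r) ≠ 1 := by have := hf.hr; subst this; decide
    have x0 := ξ.ne_zero
    rw [hi, conj_Ph hf.ord, conj_Ph hf.ord]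
    simp only [mulVec_single_one, single_one_vecMul, col_apply, row_apply, Matrix.add_apply,
      Matrix.smul_apply, smul_eq_mul, zero_add, one_apply_ne o, one_apply_ne o.symm,
      vecMulVec_apply, Pi.one_apply, Units.val_inv_eq_inv_val]
    rw [r11] at r0 ⊢
    field_simp at hc ⊢
    linear_combination hc

theorem jobHG1 : JobHG1.{u} := by
  intro dk el F _ _ r _ ω G hf hb ζ hG h
  have z0 := ζ.ne_zero
  have nz : ∀ p : ℕ, p.Prime → Nat.card F = p → (p : F) = 0 ∧ ∀ n : ℤ, ¬ (p : ℤ) ∣ n → (n : F) ≠ 0 :=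
    fun p hp e => by
      have := Fintype.ofFinite F
      have := Fact.mk hp
      have := charP_of_card_eq_prime (R := F) (Nat.card_eq_fintype_card.symm.trans e)
      exact ⟨CharP.cast_eq_zero F p, fun n hn => mt (CharP.intCast_eq_zero_iff F p n).1 hn⟩
  have zo : ∀ m, 1 ≤ m → m < orderOf ζ → (ζ : F) ^ m ≠ 1 := fun m a b c =>
    pow_ne_one_of_lt_orderOf (by omega) b (Units.ext (by simpa using c) : ζ ^ m = 1)
  have zl : (ζ : F) ^ orderOf ζ = 1 := by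
    rw [← Units.val_pow_eq_pow_val, pow_orderOf_eq_one, Units.val_one]
  rcases h with h | ⟨hq, ho⟩ | ⟨hq, ho⟩
  · have h' : ∀ m, 1 ≤ m → m ≤ 5 → (ζ : F) ^ m ≠ 1 := fun m a b c =>
      h m a b (Units.ext (by simpa using c))
    have r0 : (121 : F) ≠ 0 := by
      have := pow_ne_zero 2 (cast_ne_zero hf.ord)
      rw [hf.hr] at this; norm_num at this ⊢; exact this
    have z1 := sub_ne_zero.2 (h' 1 (by omega) (by omega))
    have z2 := sub_ne_zero.2 (h' 2 (by omega) (by omega))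
    have k : ∀ ξ : Fˣ, (ξ : F) - 1 ≠ 0 → (2 - ξ - (ξ : F)⁻¹) / 121 ≠ 0 := fun ξ x1 =>
      div_ne_zero (fun c => pow_ne_zero 2 x1 (by
        have := ξ.ne_zero
        field_simp at c; linear_combination -c)) r0
    by_cases c : (2 - ζ - (ζ : F)⁻¹) / 121 = 1
    · refine core2 dk el hf hb hG (hm_pow (0 : ZMod r) ζ 2 ▸ G.pow_mem hG 2) (h' 2 (by omega) (by omega))
        (mul_div_cancel₀ _ r0).symm (k _ (by simpa using z2)) (fun c' => ?_) (.inl h')
      rw [Units.val_pow_eq_pow_val] at c'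
      field_simp at c c'
      refine h' 3 (by omega) (by omega) (mul_left_cancel₀ z1 ?_)
      linear_combination (ζ : F) * c - c'
    · exact core2 dk el hf hb hG hG (h' 2 (by omega) (by omega)) (mul_div_cancel₀ _ r0).symm
        (k _ (by simpa using z1)) c (.inl h')
  · obtain ⟨p, n⟩ := nz 67 (by norm_num) hq
    rw [ho] at zo zl
    have z1 := sub_ne_zero.2 (zo 1 (by omega) (by omega))
    have a : 2 - ζ - (ζ : F)⁻¹ = 3 := by
      field_simp
      exact mul_left_cancel₀ z1 (by linear_combination -zl)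
    push_cast at p
    exact core2 dk el hf hb hG hG (zo 2 (by omega) (by omega)) (c := 41)
      (by rw [a]; linear_combination -74 * p) (by exact_mod_cast n 41 (by norm_num))
      (fun e => n 40 (by norm_num) (by push_cast; linear_combination e))
      (.inr ⟨122, by rw [a]; norm_num, by exact_mod_cast n 122 (by norm_num),
        fun e => n (122 ^ 2 - 1) (by norm_num) (by push_cast; linear_combination e),
        fun e => n (122 ^ 2 - 2) (by norm_num) (by push_cast; linear_combination e),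
        fun e => n (122 ^ 4 - 3 * 122 ^ 2 + 1) (by norm_num) (by push_cast; linear_combination e)⟩)
  · obtain ⟨p, n⟩ := nz 89 (by norm_num) hq
    rw [ho] at zo zl
    have z2 := sub_ne_zero.2 (zo 2 (by omega) (by omega))
    have a : 2 - ζ - (ζ : F)⁻¹ = 2 := by
      field_simp
      exact mul_left_cancel₀ z2 (by linear_combination -zl)
    push_cast at p
    exact core2 dk el hf hb hG hG (zo 2 (by omega) (by omega)) (c := 39)
      (by rw [a]; linear_combination -53 * p) (by exact_mod_cast n 39 (by norm_num))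
      (fun e => n 38 (by norm_num) (by push_cast; linear_combination e))
      (.inr ⟨78, by rw [a]; norm_num, by exact_mod_cast n 78 (by norm_num),
        fun e => n (78 ^ 2 - 1) (by norm_num) (by push_cast; linear_combination e),
        fun e => n (78 ^ 2 - 2) (by norm_num) (by push_cast; linear_combination e),
        fun e => n (78 ^ 4 - 3 * 78 ^ 2 + 1) (by norm_num) (by push_cast; linear_combination e)⟩)

end H61.C11
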