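import Cfsg.Agent.H61.O7DK1
import Cfsg.Agent.H31.O7A
import Cfsg.Agent.H58.QNormal

/-! O7 tower, job DK: rank three reflection groups by Dickson's theorem. -/

set_option autoImplicit false
set_option linter.unusedSectionVars false

namespace H61.O7

open Matrix MatrixGroups MulAction Cfsg.Geo H61.C6 H56 H31.O7 QuadraticMap Module
open scoped commutatorElement

universe u

variable {K : Type u} [Field K] {V : Type u} [AddCommGroup V] [Module K V] {Q : QuadraticForm K V}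
  {ι : M K →ₗ[K] V} {l : K} {Φ : Set V}

local notation "π" => ProjGenLinGroup.mk

variable (Q ι l) in
/-- coordinates by trace-zero matrices -/
structure Ch : Prop where
  two : (2 : K) ≠ 0
  ne : l ≠ 0
  q : ∀ X : M K, X.trace = 0 → Q (ι X) = -l * X.det

namespace Ch
variable (c : Ch Q ι l) {X Y Z : M K}
include c

theorem pol (hX : X.trace = 0) (hY : Y.trace = 0) : polar Q (ι X) (ι Y) = l * (X * Y).trace := by
  rw [polar, ← map_add, c.q _ (by rw [trace_add, hX, hY, add_zero]), c.q _ hX, c.q _ hY,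
    det_add0 hX hY]; ring

theorem cc (hX : X.trace = 0) (hY : Y.trace = 0) :
    cc Q (ι X) (ι Y) = (X * Y).trace ^ 2 / (X * Y).det := by
  rw [H31.O7.cc, c.pol hX hY, c.q _ hX, c.q _ hY, det_mul, mul_pow,
    show -l * X.det * (-l * Y.det) = l ^ 2 * (X.det * Y.det) by ring,
    mul_div_mul_left _ _ (pow_ne_zero 2 c.ne)]

theorem dt (hX : X.trace = 0) (hY : Y.trace = 0) (hZ : Z.trace = 0) (x0 : X.det ≠ 0)
    (y0 : Y.det ≠ 0) (z0 : Z.det ≠ 0) (h : (X * Y * Z).trace = 0) : dt Q (ι X) (ι Y) (ι Z) = 0 := by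
  have g := gram hX hY hZ
  have := c.ne
  rw [H31.O7.dt, c.cc hX hY, c.cc hY hZ, c.cc hX hZ, tau, c.pol hX hY, c.pol hY hZ, c.pol hZ hX,
    c.q _ hX, c.q _ hY, c.q _ hZ, det_mul, det_mul, det_mul]
  rw [h] at g
  field_simp
  linear_combination -g

theorem nd (hX : X.trace = 0) (h1 : polar Q (ι X) (ι !![1, 0; 0, -1]) = 0)
    (h2 : polar Q (ι X) (ι !![0, 1; 0, 0]) = 0) (h3 : polar Q (ι X) (ι !![0, 0; 1, 0]) = 0) :
    X = 0 := by
  rw [c.pol hX (by simp [trace_fin_two]), mul_eq_zero, or_iff_right c.ne] at h1 h2 h3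
  simp [trace_fin_two, mul_apply, Fin.sum_univ_two, tz0 hX] at h1 h2 h3
  have : X 0 0 = 0 := (mul_eq_zero.1 (show 2 * X 0 0 = 0 by linear_combination h1)).resolve_left c.two
  ext i j
  fin_cases i <;> fin_cases j <;> simp [*, tz0 hX]

theorem inj (hX : X.trace = 0) (hY : Y.trace = 0) (h : ι X = ι Y) : X = Y := by
  have : ι (X - Y) = 0 := by rw [map_sub, h, sub_self]
  exact sub_eq_zero.1 (c.nd (by rw [trace_sub, hX, hY, sub_self]) (by simp [this]) (by simp [this])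
    (by simp [this]))

theorem refl {X : GL (Fin 2) K} (hX : X.val.trace = 0) (hY : Y.trace = 0) :
    refl Q (ι X) (ι Y) = ((-1 : Kˣ) : K) • ι (X.val * Y * X⁻¹.val) := by
  have := X.det_ne_zero
  have := c.ne
  have e := eq_sub_of_add_eq (tr2 hX hY)
  rw [refl_apply, c.q _ hX, c.pol hX hY]
  generalize (X.val * Y).trace = t at e
  rw [e, sub_mul, Units.mul_inv_cancel_right, inv0 hX, smul_mul_assoc, one_mul, map_sub, map_smul, map_smul, smul_smul, Units.val_neg,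
    Units.val_one, neg_one_smul, neg_sub]
  congr 2; field_simp

theorem dec (z : V) : ∃ X : M K, X.trace = 0 ∧ ∀ Y : M K, Y.trace = 0 → polar Q (ι Y) (z - ι X) = 0 := by
  have := c.two
  have := c.ne
  have h0 : (l⁻¹ • !![polar Q (ι !![1, 0; 0, -1]) z / 2, polar Q (ι !![0, 0; 1, 0]) z;
      polar Q (ι !![0, 1; 0, 0]) z, -(polar Q (ι !![1, 0; 0, -1]) z / 2)] : M K).trace = 0 := by
    simp [trace_fin_two]
  refine ⟨_, h0, fun Y hY => ?_⟩
  rw [polar_sub_right, c.pol hY h0]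
  have : Y = Y 0 0 • !![1, 0; 0, -1] + Y 0 1 • !![0, 1; 0, 0] + Y 1 0 • !![0, 0; 1, 0] := by
    ext i j
    fin_cases i <;> fin_cases j <;> simp [tz0 hY]
  nth_rw 1 [this]
  simp only [map_add, map_smul, polar_add_left, polar_smul_left, smul_eq_mul]
  simp [trace_fin_two, mul_apply, Fin.sum_univ_two, tz0 hY]
  field_simp; ring

end Ch

/-- conjugation as a linear map -/
def cjl (C : GL (Fin 2) K) : M K →ₗ[K] M K :=
  (LinearMap.mulRight K C⁻¹.val).comp (LinearMap.mulLeft K C.val)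

theorem cjl_apply (C : GL (Fin 2) K) (X : M K) : cjl C X = C.val * X * C⁻¹.val := rfl

theorem Ch.conj (c : Ch Q ι l) (C : GL (Fin 2) K) : Ch Q (ι.comp (cjl C)) l :=
  ⟨c.two, c.ne, fun X hX => by
    rw [LinearMap.comp_apply, cjl_apply, c.q _ (by rwa [trace_units_conj]), det_units_conj]⟩

variable (Q ι Φ) in
/-- pairs (matrix, sign) induced by the reflection group -/
def Gm : Subgroup (GL (Fin 2) K × Kˣ) where
  carrier := {p | ∃ g ∈ reflGroup Q Φ, (∀ z, (∀ Y : M K, Y.trace = 0 → polar Q (ι Y) z = 0) → g z = z) ∧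
    ∀ Y : M K, Y.trace = 0 → g (ι Y) = (p.2 : K) • ι (p.1.val * Y * p.1⁻¹.val)}
  one_mem' := ⟨1, one_mem _, fun _ _ => rfl, fun Y _ => by simp⟩
  mul_mem' := by
    rintro p p' ⟨g, hg, h1, h2⟩ ⟨g', hg', h1', h2'⟩
    refine ⟨g * g', mul_mem hg hg', fun z hz => by simp [h1 z hz, h1' z hz], fun Y hY => ?_⟩
    rw [O.mul_apply, h2' Y hY, map_smul, h2 _ (by rwa [trace_units_conj]), smul_smul]
    simp [mul_comm, Matrix.mul_assoc]
  inv_mem' := by
    rintro p ⟨g, hg, h1, h2⟩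
    refine ⟨g⁻¹, inv_mem hg, fun z hz => g.inv_apply_eq.2 (h1 z hz).symm, fun Y hY => ?_⟩
    rw [g.inv_apply_eq, map_smul, Prod.fst_inv, inv_inv, h2 _ (by rwa [trace_units_conj']), smul_smul]
    simp [Matrix.mul_assoc]

theorem Gm_root (c : Ch Q ι l) {X : GL (Fin 2) K} (hX : X.val.trace = 0) (h : ι X ∈ Φ) :
    (X, -1) ∈ Gm Q ι Φ :=
  ⟨_, refl_mem_reflGroup h, fun _ hz => refl_apply_of_orth (hz _ hX), fun _ hY => c.refl hX hY⟩

theorem root_Gm (hΦ : RS Q Φ) (c : Ch Q ι l) {X : GL (Fin 2) K} (hX : X.val.trace = 0)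
    (h : (X, -1) ∈ Gm Q ι Φ) : ι X ∈ Φ := by
  obtain ⟨g, hg, h1, h2⟩ := h
  refine hΦ.full _ (by rw [c.q _ hX]; exact mul_ne_zero (neg_ne_zero.2 c.ne) X.det_ne_zero) ?_
  convert hg using 1
  ext z
  obtain ⟨Y, hY, h⟩ := c.dec z
  rw [← sub_add_cancel z (ι Y), map_add, map_add, h1 _ h, h2 _ hY, refl_apply_of_orth (h _ hX),
    c.refl hX hY]

theorem Gm_congr {h h' : GL (Fin 2) K} {e : Kˣ} (hp : (h, e) ∈ Gm Q ι Φ)
    (E : (π h : PGL(2, K)) = π h') : (h', e) ∈ Gm Q ι Φ := by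
  obtain ⟨a, rfl⟩ := ProjGenLinGroup.mk_eq_mk_iff.1 E
  have : (GeneralLinearGroup.scalar (Fin 2) a, 1) ∈ Gm Q ι Φ :=
    ⟨1, one_mem _, fun _ _ => rfl, fun Y _ => by
      rw [← map_inv, GeneralLinearGroup.coe_scalar, GeneralLinearGroup.coe_scalar, scalar_apply,
        scalar_apply, ← smul_eq_mul_diagonal, ← smul_eq_diagonal_mul, smul_smul]
      simp⟩
  simpa using mul_mem hp this

theorem Gm_conj {h : GL (Fin 2) K} {e : Kˣ} (hp : (h, e) ∈ Gm Q ι Φ) (C : GL (Fin 2) K) :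
    (C⁻¹ * h * C, e) ∈ Gm Q (ι.comp (cjl C)) Φ := by
  obtain ⟨g, hg, h1, h2⟩ := hp
  refine ⟨g, hg, fun z hz => h1 z fun Y hY => ?_, fun Y hY => ?_⟩
  · simpa [cjl_apply, Matrix.mul_assoc] using hz (C⁻¹.val * Y * C.val) (by rwa [trace_units_conj'])
  · rw [LinearMap.comp_apply, cjl_apply, h2 _ (by rwa [trace_units_conj])]
    simp [cjl_apply, Matrix.mul_assoc]

theorem par_of {X Y : GL (Fin 2) K} (hX : X.val.trace = 0) (h : (π (X * Y) : PGL(2, K)) = 1) :
    Par K (ι X) (ι Y) := by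
  obtain ⟨a, -, e⟩ := mk_eq (g := X⁻¹) (h := Y) (by
    rw [map_inv, inv_eq_iff_mul_eq_one, ← map_mul, h])
  exact ⟨_, by rw [e, inv0 hX, smul_smul, map_smul]⟩

variable {T : V → Prop}

theorem pows2 (c : Ch Q ι l) {X Y : GL (Fin 2) K} (hX : X.val.trace = 0) (hY : Y.val.trace = 0) :
    (Par K (ι X) (ι Y) ∧ (π (X * Y) : PGL(2, K)) = 1 ∧ cc Q (ι X) (ι Y) = 4) ∨
      ((π (X * Y) : PGL(2, K)) ^ 2 = 1 → cc Q (ι X) (ι Y) = 0) ∧
      ((π (X * Y) : PGL(2, K)) ^ 3 = 1 ↔ cc Q (ι X) (ι Y) = 1) ∧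
      ((π (X * Y) : PGL(2, K)) ^ 4 = 1 → cc Q (ι X) (ι Y) = 0 ∨ cc Q (ι X) (ι Y) = 2) ∧
      ((π (X * Y) : PGL(2, K)) ^ 5 = 1 → Gold (cc Q (ι X) (ι Y))) := by
  by_cases h : (π (X * Y) : PGL(2, K)) = 1
  · obtain ⟨a, ha⟩ := par_of (ι := ι) hX h
    have h0 : ∀ Z : GL (Fin 2) K, Z.val.trace = 0 → Q (ι Z) ≠ 0 := fun Z hZ => by
      rw [c.q _ hZ]; exact mul_ne_zero (neg_ne_zero.2 c.ne) Z.det_ne_zero
    refine .inl ⟨⟨a, ha⟩, h, ?_⟩
    rw [ha, cc_smul_right (fun e => h0 Y hY (by simp [ha, e])), cc_self (h0 X hX)]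
  · exact .inr (pows h (c.cc hX hY))

theorem tyB (c : Ch Q ι l) {H : Subgroup (GL (Fin 2) K)}
    (hT : ∀ x, T x → ∃ X ∈ H, X.val.trace = 0 ∧ x = ι X) (φ : H →* Equiv.Perm (Fin 4))
    (hφ : ∀ h, φ h = 1 ↔ (π h.1 : PGL(2, K)) = 1) : TyB Q T := by
  classical
  have pw : ∀ (h : H) (n : ℕ), φ h ^ n = 1 ↔ (π h.1 : PGL(2, K)) ^ n = 1 := fun h n => by
    rw [← map_pow, hφ, ← map_pow]; rfl
  refine ⟨fun x y hx hy => ?_, fun h3 => ⟨fun x => decide (∃ X : H, X.1.val.trace = 0 ∧ x = ι X.1 ∧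
    Equiv.Perm.sign (φ X) = 1), fun x y hx hy => ?_⟩⟩
  all_goals
    obtain ⟨X, mX, hX, rfl⟩ := hT x hx
    obtain ⟨Y, mY, hY, rfl⟩ := hT y hy
    have s := small4' (φ (⟨X, mX⟩ * ⟨Y, mY⟩))
    simp only [pw, Subgroup.coe_mul] at s
  · rcases pows2 c hX hY with h | h
    · exact .inr (.inr (.inr h.1))
    · rcases s.1 with s | s | s
      · exact .inl (h.1 s)
      · exact .inr (.inl (h.2.1.1 s))
      · exact (h.2.2.1 s.1).imp_right fun e => .inr (.inl e)
  have col : ∀ Z : H, Z.1.val.trace = 0 → ((∃ X : H, X.1.val.trace = 0 ∧ ι Z.1 = ι X.1 ∧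
      Equiv.Perm.sign (φ X) = 1) ↔ Equiv.Perm.sign (φ Z) = 1) := fun Z hZ =>
    ⟨fun ⟨X, h1, h2, h3⟩ => by rwa [Subtype.ext (Units.ext (c.inj hZ h1 h2))],
      fun h => ⟨Z, hZ, rfl, h⟩⟩
  have h2 := c.two
  simp only [col ⟨X, mX⟩ hX, col ⟨Y, mY⟩ hY, ne_eq, decide_eq_decide]
  rw [map_mul φ, Equiv.Perm.sign_mul] at s
  refine ⟨fun e => ?_, fun e => ?_⟩
  · rcases pows2 c hX hY with h | h
    · exact (h3 (by linear_combination e - h.2.2)).elim
    · have := s.2 (h.2.1.2 e)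
      revert this
      generalize Equiv.Perm.sign (φ ⟨X, mX⟩) = a
      generalize Equiv.Perm.sign (φ ⟨Y, mY⟩) = b
      revert a b; decide
  · rcases pows2 c hX hY with h | h
    · exact (h2 (by linear_combination e - h.2.2)).elim
    · rcases s.1 with s | s | ⟨-, s⟩
      · exact (h2 (by linear_combination h.1 s - e)).elim
      · exact (one_ne_zero (α := K) (by linear_combination h.2.1.1 s - e)).elim
      · revert s
        generalize Equiv.Perm.sign (φ ⟨X, mX⟩) = a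
        generalize Equiv.Perm.sign (φ ⟨Y, mY⟩) = b
        revert a b; decide

/-- the `k`-form -/
def jk (ι : M K →ₗ[K] V) (k : Subfield K) (a : K) : (Fin 3 → k) →ₗ[k] V where
  toFun x := ι (a • !![(x 0 : K), x 1; x 2, -x 0])
  map_add' x y := by
    rw [← map_add, ← smul_add]; congr 2
    ext i j; fin_cases i <;> fin_cases j <;> simp [add_comm]
  map_smul' t x := by
    rw [RingHom.id_apply, Subfield.smul_def, ← map_smul ι, smul_comm (t : K) a]; congr 2
    ext i j; fin_cases i <;> fin_cases j <;> simp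

theorem sub_case [Finite K] (hΦ : RS Q Φ) (c : Ch Q ι l) (k : Subfield K)
    (h1 : ∀ X : GL (Fin 2) K, X.val.trace = 0 → ι X ∈ Φ → ∃ B : GL (Fin 2) k,
      (π X : PGL(2, K)) = π (GeneralLinearGroup.map k.subtype B))
    (h2 : ∀ s : SL(2, k), ∃ e,
      (GeneralLinearGroup.map k.subtype (SpecialLinearGroup.toGL s), e) ∈ Gm Q ι Φ)
    (hT : ∀ x, T x → ∃ X : GL (Fin 2) K, X.val.trace = 0 ∧ ι X ∈ Φ ∧ x = ι X) {u : V} (hu : T u) :
    (∃ k, Lie Q Φ k ∧ ∀ x y, T x → T y → cc Q x y ∈ k) ∨ TyB Q T := by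
  have hc : ∀ x y, T x → T y → cc Q x y ∈ k := fun x y hx hy => by
    obtain ⟨X, hX, mX, rfl⟩ := hT x hx
    obtain ⟨Y, hY, mY, rfl⟩ := hT y hy
    obtain ⟨B, hB⟩ := h1 X hX mX
    obtain ⟨B', hB'⟩ := h1 Y hY mY
    obtain ⟨a, a0, e⟩ := mk_eq (g := GeneralLinearGroup.map k.subtype (B * B')) (h := X * Y) (by
      rw [map_mul, map_mul, map_mul, hB, hB'])
    rw [c.cc hX hY, ← Units.val_mul, e, trace_smul, det_smul, smul_eq_mul, mul_pow, Fintype.card_fin,
      mul_div_mul_left _ _ (pow_ne_zero 2 a0), trace_fin_two, det_fin_two]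
    exact div_mem (pow_mem (add_mem (SetLike.coe_mem _) (SetLike.coe_mem _)) 2)
      (sub_mem (mul_mem (SetLike.coe_mem _) (SetLike.coe_mem _))
        (mul_mem (SetLike.coe_mem _) (SetLike.coe_mem _)))
  have := Fintype.ofFinite k
  have h2' := c.two
  by_cases h5 : Nat.card k < 5
  · have e0 : ((Fintype.card k : ℕ) : K) = 0 := by
      rw [← map_natCast k.subtype, FiniteField.cast_card_eq_zero, map_zero]
    have e1 := Fintype.one_lt_card (α := k)
    rw [Nat.card_eq_fintype_card] at h5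
    have e3 : Fintype.card k = 3 := by
      by_contra e
      rcases (by omega : Fintype.card k = 2 ∨ Fintype.card k = 4) with e | e <;> rw [e] at e0
      · exact h2' (by exact_mod_cast e0)
      · exact mul_ne_zero h2' h2' (by push_cast at e0; linear_combination e0)
    rw [e3] at e0
    push_cast at e0
    refine .inr ⟨fun x y hx hy => ?_, fun h => (h e0).elim⟩
    have := congrArg k.subtype (FiniteField.pow_card (⟨_, hc x y hx hy⟩ : k))
    rw [e3, map_pow, Subfield.coe_subtype] at this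
    have h : cc Q x y * ((cc Q x y - 1) * (cc Q x y - 2)) = 0 := by
      linear_combination this + (cc Q x y - cc Q x y ^ 2) * e0
    simp only [mul_eq_zero, sub_eq_zero] at h
    exact h.imp_right (Or.imp_right .inl)
  obtain ⟨X, hX, mX, rfl⟩ := hT u hu
  obtain ⟨B, hB⟩ := h1 X hX mX
  obtain ⟨a, a0, e⟩ := mk_eq hB.symm
  have t0 : ∀ x : Fin 3 → k, (a • !![(x 0 : K), x 1; x 2, -x 0] : M K).trace = 0 := fun x => by
    simp [trace_fin_two]
  have dX : X.val.det = a ^ 2 * (B.val.det : k) := by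
    rw [e, det_smul, Fintype.card_fin]; exact congrArg _ (k.subtype.map_det B.val).symm
  have B0 : ((B.val.det : k) : K) ≠ 0 := by simpa using B.det_ne_zero
  have l0 := c.ne
  have qj : ∀ x, Q (jk ι k a x) / Q (ι X) = (-(x 0 * x 0) - x 1 * x 2) / (B.val.det : k) := fun x => by
    rw [jk, LinearMap.coe_mk, AddHom.coe_mk, c.q _ (t0 x), c.q _ hX, dX, det_smul, det_fin_two_of]
    field_simp; simp; ring
  have nd : ∀ x, (∀ y, polar Q (jk ι k a x) (jk ι k a y) = 0) → x = 0 := fun x h => by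
    have p : ∀ (y : Fin 3 → k) (Y : M K), !![(y 0 : K), y 1; y 2, -y 0] = Y →
        polar Q (jk ι k a x) (ι Y) = 0 := fun y Y e => by
      have := h y
      rw [jk, LinearMap.coe_mk, AddHom.coe_mk, e, map_smul ι a Y, polar_smul_right] at this
      exact (smul_eq_zero.1 this).resolve_left a0
    have := (smul_eq_zero.1 (c.nd (t0 x) (p ![1, 0, 0] _ (by simp)) (p ![0, 1, 0] _ (by simp))
      (p ![0, 0, 1] _ (by simp)))).resolve_left a0
    ext i
    fin_cases i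
    exacts [congrFun (congrFun this 0) 0, congrFun (congrFun this 0) 1, congrFun (congrFun this 1) 0]
  have N0 := hΦ.ne _ mX
  obtain ⟨z, z0, z1⟩ : ∃ z : k, z ≠ 0 ∧ z ^ 2 ≠ 1 := by
    classical
    obtain ⟨z, -, hz⟩ := Finset.exists_mem_notMem_of_card_lt_card (s := {0, 1, -1})
      (t := (Finset.univ : Finset k)) (lt_of_le_of_lt Finset.card_le_three (by
        rw [Finset.card_univ, ← Nat.card_eq_fintype_card]; omega))
    simp only [Finset.mem_insert, Finset.mem_singleton, not_or] at hz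
    exact ⟨z, hz.1, by simp [hz]⟩
  have sl : ∀ s : SL(2, k),
      (GeneralLinearGroup.map k.subtype (SpecialLinearGroup.toGL s), 1) ∈ Gm Q ι Φ := fun s => by
    have : commutator SL(2, k) ≤ (Gm Q ι Φ).comap ((MonoidHom.inl _ _).comp
        ((GeneralLinearGroup.map k.subtype).comp SpecialLinearGroup.toGL)) :=
      Subgroup.commutator_le.2 fun s _ t _ => by
        obtain ⟨e, he⟩ := h2 s
        obtain ⟨f, hf⟩ := h2 t
        have := mul_mem (mul_mem (mul_mem he hf) (inv_mem he)) (inv_mem hf)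
        simpa [commutatorElement_def] using this
    exact this (SL2.commutator_eq_top z0 z1 ▸ Subgroup.mem_top s)
  refine .inl ⟨k, ⟨by omega, Q (ι X), LinearMap.range (jk ι k a), ⟨N0, ?_, ?_, ?_⟩, ?_⟩, hc⟩
  · rintro _ ⟨x, rfl⟩
    rw [qj]
    exact div_mem (sub_mem (neg_mem (mul_mem (x 0).2 (x 0).2)) (mul_mem (x 1).2 (x 2).2))
      (SetLike.coe_mem _)
  · rintro _ ⟨x, rfl⟩ h
    rw [nd x fun y => h _ ⟨y, rfl⟩, map_zero]
  · rintro _ ⟨x, rfl⟩ t ht t0' h
    have h3 := qj x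
    rw [h, mul_div_cancel_left₀ _ N0, eq_div_iff B0] at h3
    lift t to k using ht
    have t1 : t ≠ 0 := by simpa using t0'
    have h4 : t ^ 2 * B.val.det = -(x 0 * x 0) - x 1 * x 2 := by exact_mod_cast h3
    have h5 : (t⁻¹ • (B⁻¹.val * !![x 0, x 1; x 2, -x 0]) : M k).det = 1 := by
      have := B.det_ne_zero
      rw [det_smul, det_mul, det_fin_two_of, Matrix.coe_units_inv, det_nonsing_inv, Ring.inverse_eq_inv',
        Fintype.card_fin]
      field_simp; linear_combination -h4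
    let Y : GL (Fin 2) K := GeneralLinearGroup.mkOfDetNeZero (a • !![(x 0 : K), x 1; x 2, -x 0])
      fun e => mul_ne_zero N0 (pow_ne_zero 2 t0') (by
        rw [← h, jk, LinearMap.coe_mk, AddHom.coe_mk, c.q _ (t0 x), e, mul_zero])
    obtain ⟨s, hs⟩ : ∃ s : SL(2, k), (SpecialLinearGroup.toGL s).val =
      t⁻¹ • (B⁻¹.val * !![x 0, x 1; x 2, -x 0]) := ⟨⟨_, h5⟩, rfl⟩
    refine root_Gm hΦ c (X := Y) (t0 x) (Gm_congr (by simpa using mul_mem (Gm_root c hX mX) (sl s))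
      (ProjGenLinGroup.mk_eq_mk_iff.2 ⟨Units.mk0 _ t0', Units.ext ?_⟩))
    have h6 : (B * SpecialLinearGroup.toGL s).val = t⁻¹ • !![x 0, x 1; x 2, -x 0] := by
      rw [Units.val_mul, hs, Matrix.mul_smul, Units.mul_inv_cancel_left]
    rw [Units.val_mul, Units.val_mul, e, smul_mul_assoc, ← Units.val_mul, ← map_mul,
      GeneralLinearGroup.coe_scalar, scalar_apply, ← smul_eq_mul_diagonal,
      GeneralLinearGroup.val_map_apply, h6, smul_comm]
    change _ = a • _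
    congr 1
    ext i j; fin_cases i <;> fin_cases j <;> simp [t0']
  · rw [LinearMap.finrank_range_of_inj ((injective_iff_map_eq_zero _).2 fun x h =>
      nd x fun y => by simp [h])]
    simp

theorem ex_chart [Finite K] (h2 : (2 : K) ≠ 0) {u v w : V} (hu : Q u ≠ 0) (hv : Q v ≠ 0)
    (hw : Q w ≠ 0) (h : dt Q u v w ≠ 0) : ∃ (ι : M K →ₗ[K] V) (l : K), Ch Q ι l ∧
      ∀ x ∈ Submodule.span K {u, v, w}, ∃ X : M K, X.trace = 0 ∧ x = ι X := by
  let L : (Fin 3 → K) →ₗ[K] V := Fintype.linearCombination K ![u, v, w]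
  have L1 : ∀ x, L x = x 0 • u + x 1 • v + x 2 • w := fun x => by
    simp [L, Fintype.linearCombination_apply, Fin.sum_univ_three]
  obtain ⟨l, l0, g, hg⟩ := H58.similar_qOdd (Q := Q.comp L) (m := 1) (nondegenerate_of_polar
    fun x hx => by
      have p : ∀ y, polar Q (L x) (L y) = 0 := fun y => by simpa [polar] using hx y
      have p0 := p ![1, 0, 0]
      have p1 := p ![0, 1, 0]
      have p2 := p ![0, 0, 1]
      simp [L1, polar_add_left, polar_comm Q v u, polar_comm Q w u, polar_comm Q w v] at p0 p1 p2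
      have d : 2 * (4 * Q u * Q v * Q w - polar Q u v ^ 2 * Q w - polar Q v w ^ 2 * Q u -
          polar Q u w ^ 2 * Q v + polar Q u v * polar Q v w * polar Q u w) ≠ 0 :=
        mul_ne_zero h2 fun e => h (by
          rw [dt, cc, cc, cc, tau, polar_comm Q w u]; field_simp; linear_combination e)
      generalize polar Q u v = a, polar Q v w = b, polar Q u w = c, Q u = A, Q v = B, Q w = C at *
      have e0 : x 0 = 0 := mul_left_cancel₀ d (by
        linear_combination (4 * B * C - b ^ 2) * p0 + (b * c - 2 * C * a) * p1 + (a * b - 2 * B * c) * p2)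
      have e1 : x 1 = 0 := mul_left_cancel₀ d (by
        linear_combination (b * c - 2 * C * a) * p0 + (4 * A * C - c ^ 2) * p1 + (a * c - 2 * A * b) * p2)
      have e2 : x 2 = 0 := mul_left_cancel₀ d (by
        linear_combination (a * b - 2 * B * c) * p0 + (a * c - 2 * A * b) * p1 + (4 * A * B - a ^ 2) * p2)
      ext i
      fin_cases i
      exacts [e0, e1, e2])
    (by simp)
  let vec : M K →ₗ[K] (Unit ⊕ (Fin 1 ⊕ Fin 1) → K) :=
    { toFun := fun X => Sum.elim (fun _ => X 0 0) (Sum.elim (fun _ => X 0 1) fun _ => X 1 0)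
      map_add' := fun _ _ => by ext (_ | _ | _) <;> rfl
      map_smul' := fun _ _ => by ext (_ | _ | _) <;> rfl }
  refine ⟨L ∘ₗ g.toLinearMap ∘ₗ vec, l, ⟨h2, l0, fun X hX => ?_⟩, fun x hx => ?_⟩
  · refine (hg (vec X)).trans ?_
    simp [H58.qOdd_apply, vec, det_fin_two, tz0 hX]; ring
  · obtain ⟨y, rfl⟩ : x ∈ LinearMap.range L := by
      refine (Submodule.span_le.2 ?_ : _ ≤ LinearMap.range L) hx
      rintro _ (rfl | rfl | rfl)
      exacts [⟨![1, 0, 0], by simp [L1]⟩, ⟨![0, 1, 0], by simp [L1]⟩, ⟨![0, 0, 1], by simp [L1]⟩]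
    obtain ⟨y, rfl⟩ := g.surjective y
    refine ⟨!![y (.inl ()), y (.inr (.inl 0)); y (.inr (.inr 0)), -y (.inl ())],
      by simp [trace_fin_two], congrArg (fun z => L (g z)) ?_⟩
    ext (_ | i | i) <;> first | rfl | (fin_cases i; rfl)

theorem jobDK : JobDK.{u} := by
  intro K _ _ V _ _ _ Q Φ hΦ u hu v hv w hw hd h1 h2
  obtain ⟨ι, l, c, hι⟩ := ex_chart hΦ.two (hΦ.ne u hu) (hΦ.ne v hv) (hΦ.ne w hw) hd
  have hT : ∀ x, In3 (K := K) Φ u v w x →
      ∃ X : GL (Fin 2) K, X.val.trace = 0 ∧ ι X ∈ Φ ∧ x = ι X := fun x hx => by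
    obtain ⟨X, hX, rfl⟩ := hι x hx.2
    exact ⟨GeneralLinearGroup.mkOfDetNeZero X fun e => hΦ.ne _ hx.1 (by rw [c.q _ hX, e, mul_zero]),
      hX, hx.1, rfl⟩
  have Tu : In3 (K := K) Φ u v w u := ⟨hu, Submodule.subset_span (by simp)⟩
  have mem : ∀ X : GL (Fin 2) K, X.val.trace = 0 → ι X ∈ Φ →
      X ∈ (Gm Q ι Φ).map (MonoidHom.fst _ _) := fun X hX h => ⟨_, Gm_root c hX h, rfl⟩
  have hT' : ∀ x, In3 (K := K) Φ u v w x → ∃ X : GL (Fin 2) K,
      X ∈ (Gm Q ι Φ).map (MonoidHom.fst _ _) ∧ X.val.trace = 0 ∧ x = ι X := fun x hx =>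
    let ⟨X, h1, h2, h3⟩ := hT x hx; ⟨X, mem X h1 h2, h1, h3⟩
  obtain ⟨A, mA, hA, eA⟩ := hT' u Tu
  obtain ⟨B, mB, hB, eB⟩ := hT' v ⟨hv, Submodule.subset_span (by simp)⟩
  obtain ⟨C, mC, hC, eC⟩ := hT' w ⟨hw, Submodule.subset_span (by simp)⟩
  have d3 : (A.val * B.val * C.val).trace ≠ 0 := fun e => hd (by
    rw [eA, eB, eC]; exact c.dt hA hB hC A.det_ne_zero B.det_ne_zero C.det_ne_zero e)
  rcases dk2 ((Gm Q ι Φ).map (MonoidHom.fst _ _)) with ⟨x, h⟩ | ⟨x, y, hxy, h⟩ | ⟨φ, hφ⟩ | ⟨h5, h⟩ |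
    ⟨k, D, k1, k2⟩
  · exact (d3 (fix3 hA hB hC (h A mA) (h B mB) (h C mC))).elim
  · rw [eA, eB, c.pol hA hB] at h1
    rw [eA, eB, eC, c.pol hA hC, c.pol hB hC] at h2
    exact (d3 (pair_case3 hA hB hC hxy (h A mA) (h B mB) (h C mC) (right_ne_zero_of_mul h1)
      (h2.imp right_ne_zero_of_mul right_ne_zero_of_mul))).elim
  · exact .inr (.inl (tyB c hT' φ hφ))
  · refine .inr (.inr ⟨h5, fun x y hx hy => ?_⟩)
    obtain ⟨X, mX, hX, rfl⟩ := hT' x hx
    obtain ⟨Y, mY, hY, rfl⟩ := hT' y hy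
    rcases pows2 c hX hY with s | s
    · exact .inr (.inr (.inr s.1))
    · exact (h _ (mul_mem mX mY)).imp s.1 (Or.imp s.2.1.1 fun e => .inl (s.2.2.2 e))
  refine (sub_case hΦ (c.conj D) k (fun X hX h => ?_) (fun s => ?_) (fun x hx => ?_) Tu).imp_right .inl
  · simpa [mul_assoc] using k1 (D * X * D⁻¹) (mem _ ((trace_units_conj D X.val).trans hX) h)
  · obtain ⟨_, ⟨⟨h, e⟩, he, rfl⟩, E⟩ := k2 s
    exact ⟨e, Gm_congr (Gm_conj he D) E⟩
  · obtain ⟨X, h1, h2, rfl⟩ := hT x hx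
    have : (ι.comp (cjl D)) (D⁻¹ * X * D).val = ι X := by simp [cjl_apply, Matrix.mul_assoc]
    exact ⟨D⁻¹ * X * D, (trace_units_conj' D X.val).trans h1, this ▸ h2, this.symm⟩

end H61.O7
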