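import Cfsg.Agent.H61.C6DK

/-! O7 tower, job DK, part 1: Dickson's theorem with types, and trace-zero matrices. -/

set_option autoImplicit false

namespace H61.O7

open Matrix MatrixGroups MulAction Cfsg.Geo H61.C6

universe u

variable {F : Type u} [Field F]

local notation "π" => ProjGenLinGroup.mk

theorem small5' : ∀ x : Equiv.Perm (Fin 5), Equiv.Perm.sign x = 1 →
    x ^ 2 = 1 ∨ x ^ 3 = 1 ∨ x ^ 5 = 1 := by decide +kernel

theorem small4' : ∀ x : Equiv.Perm (Fin 4),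
    (x ^ 2 = 1 ∨ x ^ 3 = 1 ∨ x ^ 4 = 1 ∧ Equiv.Perm.sign x = -1) ∧
      (x ^ 3 = 1 → Equiv.Perm.sign x = 1) := by decide +kernel

theorem dk2 [Finite F] (H : Subgroup (GL (Fin 2) F)) :
    (∃ x : PL F, ∀ h ∈ H, (π h : PGL(2, F)) • x = x) ∨
    (∃ x y : PL F, x ≠ y ∧ ∀ h ∈ H, (π h : PGL(2, F)) ∈ pairStab PGL(2, F) x y) ∨
    (∃ φ : H →* Equiv.Perm (Fin 4), ∀ h, φ h = 1 ↔ (π h.1 : PGL(2, F)) = 1) ∨
    ((5 : F) ≠ 0 ∧
      ∀ h ∈ H, (π h : PGL(2, F)) ^ 2 = 1 ∨ (π h : PGL(2, F)) ^ 3 = 1 ∨ (π h : PGL(2, F)) ^ 5 = 1) ∨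
    ∃ (k : Subfield F) (C : GL (Fin 2) F),
      (∀ h ∈ H, ∃ B : GL (Fin 2) k, (π (C⁻¹ * h * C) : PGL(2, F)) =
        π (GeneralLinearGroup.map k.subtype B)) ∧
      ∀ s : SL(2, k), ∃ h ∈ H, (π (C⁻¹ * h * C) : PGL(2, F)) =
        π (GeneralLinearGroup.map k.subtype (SpecialLinearGroup.toGL s)) := by
  obtain ⟨p, hp, _⟩ := exists_char F
  obtain ⟨y, m⟩ := main_pgl (F := F) p
  have tr : ∀ {P : Type} [Group P] (e : H.map π ≃* P) (h : GL (Fin 2) F) (hh : h ∈ H) (n : ℕ),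
      e ⟨π h, h, hh, rfl⟩ ^ n = 1 → (π h : PGL(2, F)) ^ n = 1 := fun e h hh n hn => by
    rw [← map_pow, map_eq_one_iff _ e.injective] at hn
    exact congrArg Subtype.val hn
  have s4 : ∀ f : H.map π →* Equiv.Perm (Fin 4), Function.Injective f →
      ∃ φ : H →* Equiv.Perm (Fin 4), ∀ h, φ h = 1 ↔ (π h.1 : PGL(2, F)) = 1 := fun f hf =>
    ⟨f.comp (MonoidHom.subgroupMap π H), fun h => by
      rw [MonoidHom.comp_apply, map_eq_one_iff _ hf, Subtype.ext_iff]; rfl⟩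
  rcases dickson_pgl p m (H.map π) with ⟨a, -, ha⟩ | ⟨a, -, ha⟩ | ⟨a, b, hab, -, h, -⟩ | ⟨-, ⟨e⟩⟩ |
    ⟨-, ⟨e⟩⟩ | ⟨h5, ⟨e⟩⟩ | ⟨k, γ, H₀, h0, h⟩
  · exact .inl ⟨a, fun h hh => ha ⟨h, hh, rfl⟩⟩
  · exact .inl ⟨a, fun h hh => ha ⟨h, hh, rfl⟩⟩
  · exact .inr (.inl ⟨a, b, hab, fun g hg => h ⟨g, hg, rfl⟩⟩)
  · exact .inr (.inr (.inl (s4 ((alternatingGroup _).subtype.comp e.toMonoidHom)
      (Subtype.val_injective.comp e.injective))))
  · exact .inr (.inr (.inl (s4 e.toMonoidHom e.injective)))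
  · refine .inr (.inr (.inr (.inl ⟨fun c => ?_, fun h hh =>
      (small5' (e ⟨π h, h, hh, rfl⟩).1 (e ⟨π h, h, hh, rfl⟩).2).imp
        (fun h3 => tr e h hh 2 (Subtype.ext h3)) (Or.imp (fun h3 => tr e h hh 3 (Subtype.ext h3))
          fun h3 => tr e h hh 5 (Subtype.ext h3))⟩)))
    obtain rfl : p = 5 := (Nat.prime_dvd_prime_iff_eq hp.out (by norm_num)).1
      ((CharP.cast_eq_zero_iff F p 5).1 (by exact_mod_cast c))
    refine h5.elim (fun h => h ?_) (by omega)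
    rw [Nat.card_congr e.toEquiv, nat_card_alternatingGroup]
    simp [Nat.factorial]
  obtain ⟨C, rfl⟩ := ProjGenLinGroup.mk_surjective γ
  refine .inr (.inr (.inr (.inr ⟨k, C, fun g hg => ?_, fun s => ?_⟩)))
  · have : (MulAut.conj (π C)⁻¹).toMonoidHom (π g) ∈ H₀.map (ProjGenLinGroup.map k.subtype) :=
      h ▸ ⟨_, ⟨g, hg, rfl⟩, rfl⟩
    obtain ⟨B, -, hB⟩ := this
    obtain ⟨B, rfl⟩ := ProjGenLinGroup.mk_surjective B
    exact ⟨B, by rw [← ProjGenLinGroup.map_mk, hB]; simp⟩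
  · have h1 : SpecialLinearGroup.toPGL s ∈ H₀ := by
      rcases h0 with ⟨rfl, -⟩ | ⟨rfl, -⟩
      · trivial
      · exact ⟨s, rfl⟩
    have h2 : ProjGenLinGroup.map k.subtype (SpecialLinearGroup.toPGL s) ∈
        (H.map π).map (MulAut.conj (π C)⁻¹).toMonoidHom := h ▸ ⟨_, h1, rfl⟩
    obtain ⟨_, ⟨f, hf, rfl⟩, hf2⟩ := h2
    exact ⟨f, hf, by rw [← ProjGenLinGroup.map_mk, ← MonoidHom.comp_apply π, ← hf2]; simp⟩

/-! ### trace-zero matrices -/

abbrev M (F : Type u) := Matrix (Fin 2) (Fin 2) F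

variable {X Y Z : M F}

theorem tz0 (h : X.trace = 0) : X 1 1 = -X 0 0 := by
  rw [trace_fin_two] at h; linear_combination h

theorem tr2 (hX : X.trace = 0) (hY : Y.trace = 0) : X * Y + Y * X = (X * Y).trace • 1 := by
  ext i j
  fin_cases i <;> fin_cases j <;>
    simp [trace_fin_two, mul_apply, Fin.sum_univ_two, tz0 hX, tz0 hY] <;> ring

theorem tr3 (hX : X.trace = 0) (hY : Y.trace = 0) (hZ : Z.trace = 0) :
    X * Y * Z - Z * Y * X = (X * Y * Z).trace • 1 := by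
  ext i j
  fin_cases i <;> fin_cases j <;>
    simp [trace_fin_two, mul_apply, Fin.sum_univ_two, tz0 hX, tz0 hY, tz0 hZ] <;> ring

theorem sq0 (hX : X.trace = 0) : X * X = -X.det • 1 := by
  ext i j
  fin_cases i <;> fin_cases j <;> simp [det_fin_two, mul_apply, Fin.sum_univ_two, tz0 hX] <;> ring

theorem det_add0 (hX : X.trace = 0) (hY : Y.trace = 0) :
    (X + Y).det = X.det + Y.det - (X * Y).trace := by
  simp [det_fin_two, trace_fin_two, mul_apply, Fin.sum_univ_two, tz0 hX, tz0 hY]; ring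

theorem gram (hX : X.trace = 0) (hY : Y.trace = 0) (hZ : Z.trace = 0) :
    (X * Y * Z).trace ^ 2 = 4 * X.det * Y.det * Z.det - (X * Y).trace ^ 2 * Z.det -
      (Y * Z).trace ^ 2 * X.det - (X * Z).trace ^ 2 * Y.det -
      (X * Y).trace * (Y * Z).trace * (Z * X).trace := by
  simp [det_fin_two, trace_fin_two, mul_apply, Fin.sum_univ_two, tz0 hX, tz0 hY, tz0 hZ]; ring

theorem inv0 {X : GL (Fin 2) F} (hX : X.val.trace = 0) : X⁻¹.val = -X.val.det⁻¹ • X.val := by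
  have := X.det_ne_zero
  refine Units.inv_eq_of_mul_eq_one_right ?_
  rw [Matrix.mul_smul, sq0 hX, smul_smul, neg_mul_neg, inv_mul_cancel₀ this, one_smul]

theorem ch (X : M F) : X * X = X.trace • X - X.det • 1 := by
  ext i j
  fin_cases i <;> fin_cases j <;> simp [det_fin_two, trace_fin_two, mul_apply, Fin.sum_univ_two] <;>
    ring

theorem ch_succ {n : ℕ} {a b : F} (h : X ^ n = a • X + b • 1) :
    X ^ (n + 1) = (a * X.trace + b) • X + (-a * X.det) • 1 := by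
  rw [pow_succ, h, add_mul, smul_mul_assoc, ch, smul_mul_assoc, one_mul]; module

theorem pw {h : GL (Fin 2) F} {n : ℕ} {a b : F} (e : h.val ^ n = a • h.val + b • 1)
    (h1 : (π h : PGL(2, F)) ≠ 1) : (π h : PGL(2, F)) ^ n = 1 → a = 0 := fun hn => by
  rw [← map_pow, mk_eq_one, mem_scalars_iff] at hn
  obtain ⟨c, hc⟩ := hn
  by_contra a0
  have e2 : h.val = (a⁻¹ * (c - b)) • 1 := by
    rw [Units.val_pow_eq_pow_val, e] at hc
    rw [← smul_smul, sub_smul, ← hc, add_sub_cancel_right, smul_smul, inv_mul_cancel₀ a0, one_smul]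
  refine h1 (mk_eq_one.2 ((mem_scalars_iff _).2 ⟨Units.mk0 _ fun c0 => h.det_ne_zero ?_, e2⟩))
  rw [e2, c0, zero_smul, det_zero]

/-- the powers of `h` in `PGL₂` in terms of `c = tr² / det` -/
theorem pows {h : GL (Fin 2) F} (h1 : (π h : PGL(2, F)) ≠ 1) {c : F}
    (hc : c = h.val.trace ^ 2 / h.val.det) : ((π h : PGL(2, F)) ^ 2 = 1 → c = 0) ∧
      ((π h : PGL(2, F)) ^ 3 = 1 ↔ c = 1) ∧ ((π h : PGL(2, F)) ^ 4 = 1 → c = 0 ∨ c = 2) ∧
      ((π h : PGL(2, F)) ^ 5 = 1 → c ^ 2 - 3 * c + 1 = 0) := by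
  have d0 := h.det_ne_zero
  have e1 : h.val ^ 1 = (1 : F) • h.val + (0 : F) • 1 := by simp
  have e3 := ch_succ (ch_succ e1)
  have e4 := ch_succ e3
  subst hc
  refine ⟨fun e => ?_, ⟨fun e => ?_, fun e => ?_⟩, fun e => ?_, fun e => ?_⟩
  · have := pw (ch_succ e1) h1 e
    rw [show h.val.trace = 0 by linear_combination this]; simp
  · have := pw e3 h1 e
    field_simp; linear_combination this
  · rw [← map_pow, mk_eq_one, mem_scalars_iff]
    field_simp at e
    have t0 : h.val.trace ≠ 0 := fun c => d0 (by rw [← e, c]; ring)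
    refine ⟨Units.mk0 _ (neg_ne_zero.2 (mul_ne_zero t0 d0)), ?_⟩
    rw [Units.val_pow_eq_pow_val, e3, Units.val_mk0, ← e]; module
  · have := pw e4 h1 e
    rcases mul_eq_zero.1 (show h.val.trace * (h.val.trace ^ 2 - 2 * h.val.det) = 0 by
      linear_combination this) with c | c
    · left; simp [c]
    · right; field_simp; linear_combination c
  · have := pw (ch_succ e4) h1 e
    field_simp; linear_combination this

/-! ### fixed points -/

/-- `X` maps the vector `v` to `c • w` -/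
def Mp (X : M F) (v w : Fin 2 → AlgebraicClosure F) (c : AlgebraicClosure F) : Prop :=
  X.map (algebraMap F _) *ᵥ v = c • w

variable {v w z : Fin 2 → AlgebraicClosure F} {a b : AlgebraicClosure F}

theorem Mp.mul (h : Mp Y v w a) (h' : Mp X w z b) : Mp (X * Y) v z (a * b) := by
  rw [Mp, Matrix.map_mul, ← mulVec_mulVec, h, mulVec_smul, h', smul_smul]

theorem Mp.add (h : Mp X v w a) (h' : Mp Y v w b) : Mp (X + Y) v w (a + b) := by
  rw [Mp, Matrix.map_add _ (map_add _), add_mulVec, h, h', add_smul]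

theorem Mp.sub (h : Mp X v w a) (h' : Mp Y v w b) : Mp (X - Y) v w (a - b) := by
  rw [Mp, Matrix.map_sub _ (map_sub _), sub_mulVec, h, h', sub_smul]

theorem Mp.sc {t : F} (h : Mp (t • 1) v w a) : algebraMap F (AlgebraicClosure F) t • v = a • w := by
  rw [← h]
  ext i
  fin_cases i <;> simp [mulVec, dotProduct, Fin.sum_univ_two]

theorem mp_of {g : GL (Fin 2) F} {hv : v ≠ 0} {hw : w ≠ 0}
    (h : (π g : PGL(2, F)) • (Projectivization.mk _ v hv : PL F) = Projectivization.mk _ w hw) :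
    ∃ c, Mp g.val v w c := by
  rw [mk_smul, Projectivization.smul_mk, Projectivization.mk_eq_mk_iff] at h
  obtain ⟨c, hc⟩ := h
  exact ⟨c, hc.symm⟩

theorem Mp.zero {t : F} {hv : v ≠ 0} {hw : w ≠ 0} (h : Mp (t • 1) v w a)
    (hne : (Projectivization.mk _ v hv : PL F) ≠ Projectivization.mk _ w hw) : t = 0 := by
  by_contra t0
  have t1 := (map_ne_zero (algebraMap F (AlgebraicClosure F))).2 t0
  exact hne ((Projectivization.mk_eq_mk_iff' _ _ _ hv hw).2 ⟨_, by
    rw [← smul_smul, ← h.sc, smul_smul, inv_mul_cancel₀ t1, one_smul]⟩)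

variable {A B C : GL (Fin 2) F}

theorem fix3 (hA : A.val.trace = 0) (hB : B.val.trace = 0) (hC : C.val.trace = 0) {x : PL F}
    (a : (π A : PGL(2, F)) • x = x) (b : (π B : PGL(2, F)) • x = x)
    (c : (π C : PGL(2, F)) • x = x) : (A.val * B.val * C.val).trace = 0 := by
  induction x using Projectivization.ind with | h v hv =>
  obtain ⟨α, a⟩ := mp_of a
  obtain ⟨β, b⟩ := mp_of b
  obtain ⟨γ, c⟩ := mp_of c
  have h := (c.mul (b.mul a)).sub (a.mul (b.mul c))
  rw [tr3 hA hB hC] at h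
  have := smul_left_injective _ hv h.sc
  exact (map_eq_zero (algebraMap F (AlgebraicClosure F))).1 (this.trans (by ring))

theorem pair2 (hA : A.val.trace = 0) (hB : B.val.trace = 0) {x y : PL F} (hne : x ≠ y)
    (a : (π A : PGL(2, F)) • x = x ∧ (π A : PGL(2, F)) • y = y) (b : (π B : PGL(2, F)) • x = y) :
    (A.val * B.val).trace = 0 := by
  induction x using Projectivization.ind with | h v hv =>
  induction y using Projectivization.ind with | h w hw =>
  obtain ⟨α, a1⟩ := mp_of a.1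
  obtain ⟨α', a2⟩ := mp_of a.2
  obtain ⟨β, b⟩ := mp_of b
  have h := (b.mul a2).add (a1.mul b)
  rw [tr2 hA hB] at h
  exact h.zero hne

theorem pair3 (hA : A.val.trace = 0) (hB : B.val.trace = 0) (hC : C.val.trace = 0) {x y : PL F}
    (hne : x ≠ y) (a : (π A : PGL(2, F)) • x = y) (b : (π B : PGL(2, F)) • y = x)
    (c : (π C : PGL(2, F)) • x = y) : (A.val * B.val * C.val).trace = 0 := by
  induction x using Projectivization.ind with | h v hv =>
  induction y using Projectivization.ind with | h w hw =>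
  obtain ⟨α, a⟩ := mp_of a
  obtain ⟨β, b⟩ := mp_of b
  obtain ⟨γ, c⟩ := mp_of c
  have h := (c.mul (b.mul a)).sub (a.mul (b.mul c))
  rw [tr3 hA hB hC] at h
  exact h.zero hne

theorem pair_case3 (hA : A.val.trace = 0) (hB : B.val.trace = 0) (hC : C.val.trace = 0)
    {x y : PL F} (hne : x ≠ y) (a : (π A : PGL(2, F)) ∈ pairStab PGL(2, F) x y)
    (b : (π B : PGL(2, F)) ∈ pairStab PGL(2, F) x y) (c : (π C : PGL(2, F)) ∈ pairStab PGL(2, F) x y)
    (h1 : (A.val * B.val).trace ≠ 0) (h2 : (A.val * C.val).trace ≠ 0 ∨ (B.val * C.val).trace ≠ 0) :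
    (A.val * B.val * C.val).trace = 0 := by
  rcases a with a | a <;> rcases b with b | b
  · rcases c with c | c
    · exact fix3 hA hB hC a.1 b.1 c.1
    · exact (h2.elim (· (pair2 hA hC hne a c.1)) (· (pair2 hB hC hne b c.1))).elim
  · exact (h1 (pair2 hA hB hne a b.1)).elim
  · exact (h1 (by rw [trace_mul_comm]; exact pair2 hB hA hne b a.1)).elim
  · rcases c with c | c
    · exact (h2.elim (· (by rw [trace_mul_comm]; exact pair2 hC hA hne c a.1))
        (· (by rw [trace_mul_comm]; exact pair2 hC hB hne c b.1))).elim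
    · exact pair3 hA hB hC hne a.1 b.2 c.1

end H61.O7
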