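import Cfsg.Agent.H61.O7S3b

/-! O7 tower, job S3, part 3: short chains and the theorem. -/

set_option autoImplicit false
set_option linter.unusedSectionVars false

namespace H61.O7S

open H56 H31.O7 QuadraticMap Module Finset

universe u

variable {K : Type u} [Field K] {V : Type u} [AddCommGroup V] [Module K V] {Q : QuadraticForm K V}
  {Ψ : Set V} {N : K} {u v w z : V} {ip : V → V → ℤ} {ι : Type} [Fintype ι] [DecidableEq ι]
  {x : ι → V} {T T' : Finset ι} {i j k l : ι}

theorem ind_pair (h : i ≠ j) (k : ι) : ind {i, j} k = ind {i} k + ind {j} k := by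
  by_cases a : k = i <;> by_cases b : k = j <;> simp_all [ind]

section D
variable (I : IP Q Ψ N ip) (c : Ch Ψ ip x) (hm : ∀ y : Option ι → V, ¬ Ch Ψ ip y) {d : V}
  (p : ∀ i j, i ≠ j → Ty Ψ ip x (d + x i + x j) {i, j})
  (q : ∀ z T, Ty Ψ ip x z T → ∃ C, ∀ i j, i ≠ j → ip z (d + x i + x j) = C + ind T i + ind T j)
include I c hm p q

theorem pp (h : i ≠ j) (h' : k ≠ l) :
    ip (d + x i + x j) (d + x k + x l) = ind {i, j} k + ind {i, j} l := by
  obtain ⟨C, e⟩ := q _ _ (p i j h)
  have := e i j h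
  rw [I.self] at this
  simp only [ind, mem_insert, mem_singleton, true_or, or_true, if_true] at this
  rw [e k l h']; omega

theorem no_odd (a : ι) (h : Ty Ψ ip x u T) (e : ∀ i j, i ≠ j → ip u (d + x i + x j) =
    -1 + ind T i + ind T j) : False := by
  induction hn : Tᶜ.card using Nat.strong_induction_on generalizing u T with
  | _ n ih =>
  by_cases h1 : 1 < Tᶜ.card
  · obtain ⟨i, hi, j, hj, ij⟩ := one_lt_card.1 h1
    rw [mem_compl] at hi hj
    have e1 : ip u (d + x i + x j) = -1 := by rw [e i j ij]; simp [ind, hi, hj]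
    have dj : Disjoint T {i, j} := by simp [hi, hj]
    refine ih _ ?_ (I.ty_add c h (p i j ij) e1 dj) (fun k l kl => ?_) rfl
    · rw [← hn]
      exact card_lt_card ⟨fun k => by simp +contextual, fun s => by simpa using s (mem_compl.2 hi)⟩
    have : ∀ k, ind (T ∪ {i, j}) k = ind T k + ind {i, j} k := fun k => by
      have : k ∈ T → k ∉ ({i, j} : Finset ι) := fun a => disjoint_left.1 dj a
      by_cases a : k ∈ T <;> by_cases b : k ∈ ({i, j} : Finset ι) <;> simp_all [ind]
    rw [I.symm, (I.add h.1 (p i j ij).1 e1).2 _ (p k l kl).1, I.symm, e k l kl, I.symm,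
      pp I c hm p q ij kl, this, this]
    ring
  have := (I.no1 c hm h).2
  obtain rfl : T = univ := compl_eq_empty_iff _ |>.1 (card_eq_zero.1 (by omega))
  let y := Function.update x a (-(d + x a))
  have y1 : ∀ i, i ≠ a → y i = x i := fun i e => Function.update_of_ne e _ _
  have y2 : ∀ i, i ≠ a → y i - y a = d + x i + x a := fun i e => by
    rw [y1 i e, show y a = _ from Function.update_self ..]; abel
  have cy : Ch Ψ ip y := by
    refine ⟨fun i j ij => ?_, fun i j k ij ik jk => ?_⟩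
    · by_cases e1 : i = a
      · subst e1; rw [← neg_sub, y2 j ij.symm]; exact I.neg_mem (p _ _ ij.symm).1
      by_cases e2 : j = a
      · subst e2; rw [y2 i ij]; exact (p _ _ ij).1
      rw [y1 i e1, y1 j e2]; exact c.1 i j ij
    by_cases e1 : i = a
    · subst e1
      rw [← neg_sub, ← neg_sub (y k), y2 j ij.symm, y2 k ik.symm, I.neg (I.neg_mem (p _ _ ij.symm).1),
        I.neg' _ (p _ _ ik.symm).1, pp I c hm p q ij.symm ik.symm]
      simp [ind, ik.symm, jk.symm]
    by_cases e2 : j = a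
    · subst e2; rw [y2 i ij, y1 i e1, y1 k jk.symm, (p _ _ ij).2 i k ik]; simp [ind, ik.symm, jk.symm]
    by_cases e3 : k = a
    · subst e3; rw [y2 i ik, y1 i e1, y1 j jk, I.symm, (p _ _ ik).2 i j ij]; simp [ind, ij.symm, jk]
    rw [y1 i e1, y1 j e2, y1 k e3]; exact c.2 i j k ij ik jk
  refine (I.no1 cy hm (T := {a}ᶜ) ⟨h.1, fun i j ij => ?_⟩).2 (by simp)
  by_cases e1 : i = a
  · subst e1; rw [← neg_sub, I.neg h.1, y2 j ij.symm, e _ _ ij.symm]; simp [ind, ij.symm]
  by_cases e2 : j = a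
  · subst e2; rw [y2 i ij, e _ _ ij]; simp [ind, ij]
  rw [y1 i e1, y1 j e2, h.2 i j ij]; simp [ind, e1, e2]

theorem zero_of (hu : u ∈ Ψ) (h1 : ∀ i j, i ≠ j → u ≠ x i - x j ∧ u ≠ d + x i + x j ∧
    u ≠ -(d + x i + x j)) (h : i ≠ j) : ip u (x i - x j) = 0 ∧ ip u (d + x i + x j) = 0 := by
  obtain ⟨T, t⟩ := I.exists_ty c hu fun i j e => (h1 i j e).1
  obtain ⟨C, e⟩ := q u T t
  have b : ∀ i j, i ≠ j → -1 ≤ C + ind T i + ind T j ∧ C + ind T i + ind T j ≤ 1 := fun i j ij => by
    rcases I.bd hu (p i j ij).1 with a | a | a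
    · exact ((h1 i j ij).2.1 a.symm).elim
    · exact ((h1 i j ij).2.2 (by rw [a, neg_neg])).elim
    · exact e i j ij ▸ a
  have n1 : C ≠ -1 := fun a => no_odd I c hm p q i t (a ▸ e)
  have := b i j h
  rw [t.2 i j h, e i j h]
  by_cases a : T = ∅
  · subst a
    have : C ≠ 1 := fun a => no_odd I c hm p q i (compl_empty (α := ι) ▸ I.ty_neg t c).univ
      fun i j ij => by rw [I.neg' _ (p i j ij).1, e i j ij, a]; simp [ind]
    simp [ind] at *; omega
  by_cases a' : T = univ
  · subst a'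
    have : C ≠ -3 := fun a => no_odd I c hm p q i t.univ
      fun i j ij => by rw [e i j ij, a]; simp [ind]
    simp [ind] at *; omega
  have n := I.no1 c hm t
  have := card_pos.2 (nonempty_iff_ne_empty.2 a)
  have := card_pos.2 (nonempty_iff_ne_empty.2 (mt (compl_eq_empty_iff T).1 a'))
  obtain ⟨i, hi, j, hj, ij⟩ := one_lt_card.1 (show 1 < T.card by omega)
  obtain ⟨k, hk, l, hl, kl⟩ := one_lt_card.1 (show 1 < Tᶜ.card by omega)
  have b1 := b i j ij
  have b2 := b k l kl
  simp only [ind, hi, hj, mem_compl.1 hk, mem_compl.1 hl, if_true, if_false] at b1 b2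
  omega

end D

variable [FiniteDimensional K V] (S : SL Q Ψ N) (I : IP Q Ψ N ip)
include S

theorem top {s : Finset V} {v : V} (hv : v ∈ Submodule.span K (s : Set V)) (h0 : v ≠ 0)
    (h : ∀ v ∈ Ψ, v ∈ Submodule.span K (s : Set V) ∨ ∀ y ∈ s, polar Q y v = 0) :
    7 ≤ s.card ∧ ∀ v, (∀ y ∈ s, polar Q y v = 0) → v = 0 := by
  rcases S.irr (Submodule.span K s) fun v hv => (h v hv).imp_right mem_perp_span.2 with e | e
  · exact (h0 (by simpa [e] using hv)).elim
  refine ⟨?_, fun v hv => S.nd.1 v fun y => ?_⟩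
  · have := finrank_span_finset_le_card (R := K) s
    rwa [Set.finrank, e, finrank_top, S.dim] at this
  · exact mem_perp'.1 (mem_perp_span.2 hv) y (e ▸ trivial)

theorem ne0 (hv : v ∈ Ψ) : v ≠ 0 := fun e => S.ne (by rw [← S.norm v hv, e, map_zero])

include I

theorem typeD {n : ℕ} {x : Fin n → V} {T : Finset (Fin n)} (c : Ch Ψ ip x)
    (hm : ∀ y : Option (Fin n) → V, ¬ Ch Ψ ip y) (hn : n ≤ 7) (h : Ty Ψ ip x w T) (h2 : T.card = 2) :
    ∃ e : Fin 7 → V, (∀ i, 2 * Q (e i) = N) ∧ (∀ i j, i ≠ j → polar Q (e i) (e j) = 0) ∧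
      Ψ = RD e := by
  classical
  have t := S.two
  set d := w - ∑ i ∈ T, x i with hd
  have m := fun i j (ij : i ≠ j) => I.move c h (T' := {i, j}) (h2.trans (card_pair ij).symm)
  have p : ∀ i j, i ≠ j → Ty Ψ ip x (d + x i + x j) {i, j} := fun i j ij => by
    simpa [sum_pair ij, add_assoc] using (m i j ij).1
  have q : ∀ z T, Ty Ψ ip x z T → ∃ C, ∀ i j, i ≠ j → ip z (d + x i + x j) = C + ind T i + ind T j :=
    fun z T' hz => ⟨ip z w - (T ∩ T').card, fun i j ij => by
      have := (m i j ij).2 z T' hz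
      rwa [← sum_ind {i, j}, sum_pair ij, sum_pair ij, ← add_assoc, ← add_assoc] at this⟩
  let e : Fin n → V := fun i => x i + (2 : K)⁻¹ • d
  have e1 : ∀ i j, e i - e j = x i - x j := fun i j => add_sub_add_right_eq_sub ..
  have e2 : ∀ i j, e i + e j = d + x i + x j := fun i j => by
    simp only [e]; match_scalars <;> field_simp <;> norm_num
  have o : ∀ i j, i ≠ j → 2 * Q (e i) = N ∧ polar Q (e i) (e j) = 0 := fun i j ij => by
    have a1 := S.norm _ (c.1 i j ij)
    have a2 := S.norm _ (p i j ij).1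
    have a3 := I.ty_pol c (p i j ij) i j
    rw [← e1] at a1 a3
    rw [← e2] at a2 a3
    rw [sub_eq_add_neg, QuadraticMap.map_add Q, QuadraticMap.map_neg, polar_neg_right] at a1
    rw [QuadraticMap.map_add Q] at a2
    simp only [polar_add_left, polar_sub_right, polar_self', polar_comm Q (e j), ind, mem_insert,
      mem_singleton, true_or, or_true, if_true, sub_self, Int.cast_zero, zero_mul] at a3
    exact ⟨mul_left_cancel₀ t (by linear_combination a1 + a2 + a3),
      mul_left_cancel₀ t (by linear_combination a2 - a1)⟩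
  obtain ⟨i, -, j, -, ij⟩ := one_lt_card.1 (show 1 < T.card by omega)
  have : Nontrivial (Fin n) := ⟨i, j, ij⟩
  have o1 : ∀ i, 2 * Q (e i) = N := fun i => (exists_ne i).elim fun j a => (o i j a.symm).1
  have z : ∀ u ∈ Ψ, (∃ i j, i ≠ j ∧ (u = e i - e j ∨ u = e i + e j ∨ u = -(e i + e j))) ∨
      ∀ y ∈ univ.image e, polar Q y u = 0 := fun u hu => by
    refine or_iff_not_imp_left.2 fun a y hy => ?_
    obtain ⟨i, -, rfl⟩ := mem_image.1 hy
    obtain ⟨j, ij⟩ := exists_ne i
    have := zero_of I c hm p q hu (fun i j ij => by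
      rw [← e1, ← e2]; by_contra! b; exact a ⟨i, j, ij, by tauto⟩) ij.symm
    have b1 := I.pol hu (c.1 i j ij.symm)
    have b2 := I.pol hu (p i j ij.symm).1
    rw [this.1, ← e1, polar_sub_right] at b1
    rw [this.2, ← e2, polar_add_right] at b2
    rw [polar_comm]
    exact mul_left_cancel₀ t (by push_cast at b1 b2; linear_combination b1 + b2)
  have s : ∀ i, e i ∈ Submodule.span K ((univ.image e : Finset V) : Set V) := fun i =>
    Submodule.subset_span (by simp)
  have tp := top S (s i) (fun a => S.ne (by rw [← o1 i, a, map_zero, mul_zero])) fun u hu =>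
    (z u hu).imp_left fun ⟨i, j, _, a⟩ => by
      rcases a with rfl | rfl | rfl
      exacts [sub_mem (s i) (s j), add_mem (s i) (s j), neg_mem (add_mem (s i) (s j))]
  obtain rfl : n = 7 := le_antisymm hn (tp.1.trans (card_image_le.trans (by simp)))
  refine ⟨e, o1, fun i j ij => (o i j ij).2, Set.ext fun u => ⟨fun hu =>
    (z u hu).resolve_right fun a => ne0 S hu (tp.2 u a), ?_⟩⟩
  rintro ⟨i, j, ij, rfl | rfl | rfl⟩
  exacts [e1 i j ▸ c.1 i j ij, e2 i j ▸ (p i j ij).1, I.neg_mem (e2 i j ▸ (p i j ij).1)]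

theorem no_low (c : Ch Ψ ip x) (hm : ∀ y : Option ι → V, ¬ Ch Ψ ip y) (h2 : 2 ≤ Fintype.card ι)
    (hn : Fintype.card ι ≤ 7) (no2 : ∀ w T, Ty Ψ ip x w T → T.card ≠ 2) : False := by
  classical
  obtain ⟨a, b, ab⟩ := Fintype.exists_pair_of_one_lt_card h2
  let s := (univ.erase a).image fun i => x i - x a
  have sc : s.card + 1 ≤ Fintype.card ι := by
    have : s.card ≤ _ := card_image_le
    rw [card_erase_of_mem (mem_univ a), card_univ] at this; omega
  have s1 : ∀ i, x i - x a ∈ Submodule.span K (s : Set V) := fun i => by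
    by_cases e : i = a
    · simp [e]
    · exact Submodule.subset_span (mem_coe.2 (mem_image_of_mem _ (by simp [e])))
  have s2 : ∀ i j, x i - x j ∈ Submodule.span K (s : Set V) := fun i j =>
    sub_sub_sub_cancel_right (x i) (x j) (x a) ▸ sub_mem (s1 i) (s1 j)
  have s0 : ∀ v, Ty Ψ ip x v ∅ → ∀ y ∈ s, polar Q y v = 0 := fun v hv y hy => by
    obtain ⟨i, -, rfl⟩ := mem_image.1 hy
    rw [polar_comm, I.ty_pol c hv]; simp [ind]
  have n0 := ne0 S (c.1 b a ab.symm)
  have ty : ∀ v ∈ Ψ, v ∈ Submodule.span K (s : Set V) ∨ Ty Ψ ip x v ∅ ∨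
      ∃ T, Ty Ψ ip x v T ∧ 3 ≤ T.card ∧ 3 ≤ Tᶜ.card := fun v hv => by
    by_cases e : ∃ i j, i ≠ j ∧ v = x i - x j
    · obtain ⟨i, j, -, rfl⟩ := e; exact .inl (s2 i j)
    obtain ⟨T, t⟩ := I.exists_ty c hv fun i j a b => e ⟨i, j, a, b⟩
    by_cases e1 : T = ∅
    · exact .inr (.inl (e1 ▸ t))
    by_cases e2 : T = univ
    · exact .inr (.inl (e2 ▸ t :).univ)
    have := card_pos.2 (nonempty_iff_ne_empty.2 e1)
    have := card_pos.2 (nonempty_iff_ne_empty.2 (mt (compl_eq_empty_iff T).1 e2))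
    have := I.no1 c hm t
    have := no2 _ _ t
    have := no2 _ _ (I.ty_neg t c)
    exact .inr (.inr ⟨T, t, by omega, by omega⟩)
  by_cases ex : ∃ w T, Ty Ψ ip x w T ∧ T.card = 3 ∧ 3 ≤ Tᶜ.card
  swap
  · refine absurd (top S (s1 b) n0 fun v hv => (ty v hv).imp_right fun h => h.elim (s0 v) ?_).1
      (by omega)
    rintro ⟨T, t, a1, a2⟩
    have := card_add_card_compl T
    by_cases e : T.card = 3
    · exact (ex ⟨_, _, t, e, a2⟩).elim
    · exact (ex ⟨_, _, I.ty_neg t c, by omega, by rwa [compl_compl]⟩).elim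
  obtain ⟨w, T, t, a1, a2⟩ := ex
  have a3 := card_add_card_compl T
  obtain ⟨T', a4, a5⟩ := exists_subset_card_eq a2
  have dj : Disjoint T T' := disjoint_compl_right.mono_right a4
  by_cases h7 : Fintype.card ι = 7
  · have m := I.move c t (a1.trans a5.symm)
    have := (I.no1 c hm (I.ty_add c t m.1 (by
      rw [m.2 w T t, I.self, inter_self, a1, disjoint_iff_inter_eq_empty.1 dj.symm]; rfl) dj)).2
    rw [card_compl, card_union_of_disjoint dj] at this
    omega
  let U := Submodule.span K ((insert w s : Finset V) : Set V)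
  have le : Submodule.span K (s : Set V) ≤ U := Submodule.span_mono (by simp)
  have wU : w ∈ U := Submodule.subset_span (by simp)
  have mv : ∀ v (A B : Finset ι), A.card = B.card → v - ∑ i ∈ A, x i + ∑ i ∈ B, x i ∈ U → v ∈ U :=
    fun v A B e h => by
      have : v = v - ∑ i ∈ A, x i + ∑ i ∈ B, x i + ∑ i ∈ A, (x i - x a) - ∑ i ∈ B, (x i - x a) := by
        simp only [sum_sub_distrib, sum_const, e]; abel
      rw [this]
      exact sub_mem (add_mem h (sum_mem fun i _ => le (s1 i))) (sum_mem fun i _ => le (s1 i))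
  have t3 : ∀ v A, Ty Ψ ip x v A → A.card = 3 → v ∈ U := fun v A h e => by
    have m1 := I.move c h (e.trans a1.symm)
    have m2 := I.move c h (e.trans a5.symm)
    have b1 := I.ge t.1 m1.1.1
    have b2 := I.ge t.1 m2.1.1
    have c1 := m1.2 w T t
    have c2 := m2.2 w T t
    rw [inter_self, a1] at c1
    rw [disjoint_iff_inter_eq_empty.1 dj.symm, card_empty] at c2
    by_cases f : ip w (v - ∑ i ∈ A, x i + ∑ i ∈ T, x i) = 2
    · exact mv v A T (e.trans a1.symm) (b1.2.2.1 f ▸ wU)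
    · exact mv v A T' (e.trans a5.symm) (b2.2.1 (by omega) ▸ neg_mem wU)
  have t0 : ∀ v, Ty Ψ ip x v ∅ → ip v w = -1 → v ∈ U := fun v h e => by
    simpa using sub_mem (t3 _ _ (I.ty_add c h t e (by simp)) (by simpa using a1)) wU
  refine absurd (top S (le (s1 b)) n0 fun v hv => ?_).1 (by have := card_insert_le w s; omega)
  rcases ty v hv with h | h | ⟨A, h, b1, b2⟩
  · exact .inl (le h)
  · rcases I.bd hv t.1 with e | e | e
    · exact .inl (e ▸ wU)
    · exact .inl (neg_mem_iff.1 (e ▸ wU))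
    by_cases e1 : ip v w = -1
    · exact .inl (t0 v h e1)
    by_cases e2 : ip v w = 1
    · exact .inl (neg_mem_iff.1 (t0 _ (compl_empty (α := ι) ▸ I.ty_neg h c).univ
        (by rw [I.neg' _ t.1, e2])))
    refine .inr fun y hy => (mem_insert.1 hy).elim (fun f => ?_) (s0 v h y)
    rw [f, polar_comm, I.pol hv t.1, show ip v w = 0 by omega]; simp
  · exact .inl (t3 v A h (by have := card_add_card_compl A; omega))

omit S I in
theorem jobS3 : JobS3.{u} := fun K _ V _ _ _ Q Ψ N S H => by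
  have I := exists_ip S H
  obtain ⟨n, x, h2, h9, c, hm⟩ := exists_max S I
  have sx : Sx Q x N := fun i j e => S.norm _ (c.1 i j e)
  by_cases ex : ∃ w T, Ty Ψ (ip0 Q N) x w T ∧ (n ≤ 7 → T.card = 2)
  · obtain ⟨w, T, t, e⟩ := ex
    by_cases h7 : n ≤ 7
    · exact .inr (.inr (typeD S I c hm h7 t (e h7)))
    by_cases h8 : n = 8
    · subst h8; exact .inr (.inl ⟨x, sx, eq_RE S I c hm t⟩)
    exact (nine S I c (by simp; omega) t).elim
  push Not at ex
  by_cases h7 : n ≤ 7
  · exact (no_low S I c hm (by simpa using h2) (by simpa using h7) fun w T t => (ex w T t).2).elim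
  exact .inl ⟨n, x, by omega, sx, eq_RA I c fun w T t => h7 (ex w T t).1⟩

end H61.O7S
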