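import Cfsg.Agent.H31.O7A

/-! O7 tower, job S3, part 1: the integral form, chains and types. -/

set_option autoImplicit false
set_option linter.unusedSectionVars false

namespace H61.O7S

open H56 H31.O7 QuadraticMap Module Finset

universe u

variable {K : Type u} [Field K] {V : Type u} [AddCommGroup V] [Module K V] {Q : QuadraticForm K V}
  {Ψ : Set V} {N : K} {u v w z : V}

variable (Q Ψ N) in
/-- the integral form on the roots -/
structure IP (ip : V → V → ℤ) : Prop where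
  neg_mem : ∀ {u}, u ∈ Ψ → -u ∈ Ψ
  symm : ∀ u v, ip u v = ip v u
  neg : ∀ {u}, u ∈ Ψ → ∀ v, ip u (-v) = -ip u v
  self : ∀ u, ip u u = 2
  bd : ∀ {u v}, u ∈ Ψ → v ∈ Ψ → v = u ∨ v = -u ∨ -1 ≤ ip u v ∧ ip u v ≤ 1
  add : ∀ {u v}, u ∈ Ψ → v ∈ Ψ → ip u v = -1 →
    u + v ∈ Ψ ∧ ∀ w ∈ Ψ, ip w (u + v) = ip w u + ip w v
  pol : ∀ {u v}, u ∈ Ψ → v ∈ Ψ → polar Q u v = ip u v * N

open Classical in
variable (Q N) in
noncomputable def ip0 (u v : V) : ℤ := if v = u then 2 else if v = -u then -2 else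
  if polar Q u v = N then 1 else if polar Q u v = -N then -1 else 0

theorem exists_ip (S : SL Q Ψ N) (H : Tri Q Ψ N) : IP Q Ψ N (ip0 Q N) := by
  have h2 := S.two
  have N0 := S.ne
  have nN : N ≠ -N := fun e => mul_ne_zero h2 N0 (by linear_combination e)
  have u0 : ∀ {u}, u ∈ Ψ → u ≠ 0 := fun hu e => N0 (by rw [← S.norm _ hu, e, map_zero])
  have un : ∀ {u}, u ∈ Ψ → u ≠ -u := fun {u} hu e => u0 hu ((smul_eq_zero.1
    (show (2 : K) • u = 0 by rw [two_smul]; exact eq_neg_iff_add_eq_zero.1 e)).resolve_left h2)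
  have nm : ∀ {u}, u ∈ Ψ → -u ∈ Ψ := fun {u} hu =>
    refl_apply_self (Q := Q) (S.norm u hu ▸ N0) ▸ S.cl u hu u hu
  have sy : ∀ u v, ip0 Q N u v = ip0 Q N v u := fun u v => by
    have e : v = -u ↔ u = -v := ⟨fun h => by simp [h], fun h => by simp [h]⟩
    classical
    rw [ip0, ip0, polar_comm Q u v]
    exact if_congr eq_comm rfl (if_congr e rfl rfl)
  have sf : ∀ u, ip0 Q N u u = 2 := fun u => if_pos rfl
  have ng : ∀ {u}, u ∈ Ψ → ∀ v, ip0 Q N u (-v) = -ip0 Q N u v := fun {u} hu v => by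
    have e := un hu
    rw [ip0, ip0, polar_neg_right]
    by_cases a : v = u
    · rw [a, if_neg e.symm, if_pos rfl, if_pos rfl]
    by_cases b : v = -u
    · rw [b, neg_neg, if_pos rfl, if_neg e.symm, if_pos rfl]; rfl
    rw [if_neg a, if_neg b, if_neg fun c => b (by simp [← c]), if_neg fun c => a (neg_injective c)]
    by_cases c : polar Q u v = N
    · rw [c, if_neg nN.symm, if_pos rfl, if_pos rfl]
    by_cases d : polar Q u v = -N
    · rw [d, neg_neg, if_pos rfl, if_neg nN.symm, if_pos rfl]; rfl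
    rw [if_neg c, if_neg d, if_neg fun c => d (by simp [← c]), if_neg fun e => c (neg_injective e)]; rfl
  have bd : ∀ {u v : V}, v ≠ u → v ≠ -u → -1 ≤ ip0 Q N u v ∧ ip0 Q N u v ≤ 1 := fun h h' => by
    rw [ip0, if_neg h, if_neg h']; split_ifs <;> simp
  have pl : ∀ {u v}, u ∈ Ψ → v ∈ Ψ → polar Q u v = ip0 Q N u v * N := fun {u v} hu hv => by
    rw [ip0]
    split_ifs with a b c d
    · simp [a, S.norm u hu]
    · simp [b, S.norm u hu]
    · simp [c]
    · simp [d]
    · simpa [a, b, c, d] using S.val u hu v hv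
  have un2 : ∀ a b : ℤ, -2 ≤ a - b → a - b ≤ 2 → (a : K) * N = b * N → a = b := fun a b h1 h3 e => by
    have e := mul_right_cancel₀ N0 e
    rcases (by omega : a = b ∨ a = b + 1 ∨ b = a + 1 ∨ a = b + 2 ∨ b = a + 2) with
      h | rfl | rfl | rfl | rfl
    · exact h
    all_goals push_cast at e
    exacts [(one_ne_zero (α := K) (by linear_combination e)).elim,
      (one_ne_zero (α := K) (by linear_combination -e)).elim, (h2 (by linear_combination e)).elim,
      (h2 (by linear_combination -e)).elim]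
  refine ⟨nm, sy, ng, sf, fun _ _ => by by_contra! h; exact absurd (bd h.1 h.2.1) (by simpa using h.2.2),
    fun {u v} hu hv h => ?_, pl⟩
  have p1 : polar Q u v = -N := by simp [pl hu hv, h]
  have vu : v ≠ u := fun e => by simp [e, sf] at h
  have vu' : v ≠ -u := fun e => by simp [e, ng hu, sf] at h
  have m : u + v ∈ Ψ := by
    have := S.cl u hu v hv
    rwa [refl_apply, p1, S.norm u hu, mul_neg, inv_mul_cancel₀ N0, neg_smul, one_smul, sub_neg_eq_add,
      add_comm] at this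
  have one : ∀ {u v}, u ∈ Ψ → v ∈ Ψ → u + v ∈ Ψ → polar Q u v = -N → v ≠ u → ip0 Q N u (u + v) = 1 :=
    fun {u v} hu hv m p1 vu => by
      have := bd (u := u) (v := u + v) (by simpa using u0 hv) fun e => by
        have e1 : v = (-2 : K) • u := by rw [eq_sub_of_add_eq' e]; module
        have e2 := S.norm v hv
        rw [e1, Q_smul, S.norm u hu] at e2
        exact vu (by rw [e1, show (-2 : K) = 1 from mul_right_cancel₀ N0 (by linear_combination -e2),
          one_smul])
      exact un2 _ 1 (by omega) (by omega) (by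
        rw [← pl hu m, polar_add_right, polar_self', S.norm u hu, p1]; ring)
  have o1 := one hu hv m p1 vu
  have o2 := one hv hu (add_comm u v ▸ m) (polar_comm Q u v ▸ p1) vu.symm
  rw [add_comm] at o2
  have key : ∀ w ∈ Ψ, w ≠ -u → w ≠ -v → w ≠ -(u + v) → ip0 Q N w u + ip0 Q N w v ≤ 1 ∨ w = u ∨ w = v ∨
      w = u + v → ip0 Q N w (u + v) = ip0 Q N w u + ip0 Q N w v := fun w hw a b c d => by
    by_cases e1 : w = u
    · rw [e1, o1, sf, h]; rfl
    by_cases e2 : w = v
    · rw [e2, o2, sf, sy, h]; rfl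
    by_cases e3 : w = u + v
    · rw [e3, sf, sy, o1, sy, o2]; rfl
    have b1 := bd e1 a
    have b2 := bd e2 b
    have b3 := bd e3 c
    rw [sy] at b1 b2 b3
    have d := d.resolve_right (by tauto)
    by_cases e4 : ip0 Q N w u + ip0 Q N w v = -2
    · rcases H u hu v hv w hw p1 (by rw [pl hu hw, sy, show ip0 Q N w u = -1 by omega]; simp)
        (by rw [pl hv hw, sy, show ip0 Q N w v = -1 by omega]; simp) with e | e | e | e
      exacts [(vu e).elim, (e1 e).elim, (e2 e).elim, (c (eq_neg_of_add_eq_zero_right e)).elim]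
    exact un2 _ _ (by omega) (by omega) (by
      rw [← pl hw m, polar_add_right, pl hw hu, pl hw hv]; push_cast; ring)
  have flip : ∀ w ∈ Ψ, ip0 Q N (-w) (u + v) = ip0 Q N (-w) u + ip0 Q N (-w) v →
      ip0 Q N w (u + v) = ip0 Q N w u + ip0 Q N w v := fun w hw e => by
    rw [sy, ng m, sy _ u, ng hu, sy _ v, ng hv, sy, sy u, sy v] at e; omega
  have uv : u ≠ -v := fun e => vu' (by simp [e])
  have k1 : ∀ {u v}, u ∈ Ψ → v ∈ Ψ → u + v ∈ Ψ → polar Q u v = -N → v ≠ u → u ≠ -(u + v) :=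
    fun {u v} hu hv m p e c => by
      have := one hu hv m p e
      rw [← neg_neg (u + v), ← c, ng hu, sf] at this; omega
  have a1 := k1 hu hv m p1 vu
  have a2 := k1 hv hu (add_comm u v ▸ m) (polar_comm Q u v ▸ p1) vu.symm
  rw [add_comm] at a2
  refine ⟨m, fun w hw => ?_⟩
  by_cases c1 : w = -u
  · exact flip w hw (by rw [c1, neg_neg]; exact key u hu (un hu) uv a1 (by simp))
  by_cases c2 : w = -v
  · exact flip w hw (by rw [c2, neg_neg]; exact key v hv vu' (un hv) a2 (by simp))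
  by_cases c3 : w = -(u + v)
  · exact flip w hw (by
      rw [c3, neg_neg]
      exact key _ m (fun e => a1 (by simp [e])) (fun e => a2 (by simp [e])) (un m) (by simp))
  by_cases d : ip0 Q N w u + ip0 Q N w v ≤ 1 ∨ w = u ∨ w = v ∨ w = u + v
  · exact key w hw c1 c2 c3 d
  push Not at d
  exact flip w hw (key _ (nm hw) (by simpa using d.2.1) (by simpa using d.2.2.1)
    (by rw [Ne, neg_inj]; exact d.2.2.2) (.inl (by rw [sy, ng hu, sy _ v, ng hv, sy, sy v]; omega)))

variable {ip : V → V → ℤ} {ι : Type} [Fintype ι] [DecidableEq ι] {x : ι → V} {T T' : Finset ι}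
  {i j k l : ι}

variable (Ψ ip) in
/-- chains -/
def Ch {ι : Type} (x : ι → V) : Prop := (∀ i j, i ≠ j → x i - x j ∈ Ψ) ∧
  ∀ i j k, i ≠ j → i ≠ k → j ≠ k → ip (x i - x j) (x i - x k) = 1

/-- indicator -/
def ind (T : Finset ι) (i : ι) : ℤ := if i ∈ T then 1 else 0

variable (Ψ ip) in
/-- types -/
def Ty (x : ι → V) (w : V) (T : Finset ι) : Prop :=
  w ∈ Ψ ∧ ∀ i j, i ≠ j → ip w (x i - x j) = ind T i - ind T j

theorem Ch.comp (c : Ch Ψ ip x) {κ : Type} {f : κ → ι} (hf : Function.Injective f) :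
    Ch Ψ ip (x ∘ f) :=
  ⟨fun _ _ h => c.1 _ _ (hf.ne h), fun _ _ _ a b d => c.2 _ _ _ (hf.ne a) (hf.ne b) (hf.ne d)⟩

theorem sum_ind (T T' : Finset ι) : ∑ i ∈ T, ind T' i = (T ∩ T').card := by
  simp [ind]

namespace IP
variable (I : IP Q Ψ N ip)
include I

theorem neg' (u : V) (hv : v ∈ Ψ) : ip (-u) v = -ip u v := by rw [I.symm, I.neg hv, I.symm]

theorem ge (hu : u ∈ Ψ) (hv : v ∈ Ψ) : -2 ≤ ip u v ∧ (ip u v = -2 → v = -u) ∧ (ip u v = 2 → v = u) ∧
    ip u v ≤ 2 := by
  rcases I.bd hu hv with rfl | rfl | h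
  · simp [I.self]
  · simp [I.neg hu, I.self]
  · omega

theorem ty_neg (h : Ty Ψ ip x w T) (c : Ch Ψ ip x) : Ty Ψ ip x (-w) Tᶜ :=
  ⟨I.neg_mem h.1, fun i j e => by
    rw [I.neg' _ (c.1 i j e), h.2 i j e]; simp only [ind, mem_compl]; split_ifs <;> simp⟩

variable (c : Ch Ψ ip x)
include c

theorem ch_add (hw : w ∈ Ψ) (h1 : i ≠ j) (h2 : j ≠ k) (h3 : i ≠ k) :
    ip w (x i - x k) = ip w (x i - x j) + ip w (x j - x k) := by
  rw [← (I.add (c.1 i j h1) (c.1 j k h2) (by
    rw [← neg_sub, I.neg' _ (c.1 j k h2), c.2 j i k h1.symm h2 h3])).2 w hw, sub_add_sub_cancel]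

theorem ch_ip (h1 : i ≠ j) (h2 : k ≠ l) :
    ip (x i - x j) (x k - x l) = ind {i} k - ind {j} k - (ind {i} l - ind {j} l) := by
  have m := c.1 i j h1
  have b : ∀ l, l ≠ i → ip (x i - x j) (x i - x l) = 1 + ind {j} l := fun l h => by
    by_cases e : l = j
    · simp [e, I.self, ind]
    · simp [c.2 i j l h1 h.symm (Ne.symm e), ind, e]
  by_cases e1 : k = i
  · subst e1; rw [b l h2.symm]; simp [ind, h1, h2.symm]
  by_cases e2 : l = i
  · subst e2; rw [← neg_sub (x l) (x k), I.neg m, b k h2]; simp [ind, h1, h2]; ring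
  rw [I.ch_add c m e1 (Ne.symm e2) h2, ← neg_sub (x i) (x k), I.neg m, b k e1, b l e2]
  simp [ind, e1, e2]

theorem exists_ty (hw : w ∈ Ψ) (h : ∀ i j, i ≠ j → w ≠ x i - x j) : ∃ T, Ty Ψ ip x w T := by
  let g : ι → ι → ℤ := fun i j => if i = j then 0 else ip w (x i - x j)
  have g1 : ∀ i j, -1 ≤ g i j ∧ g i j ≤ 1 := fun i j => by
    by_cases e : i = j
    · simp [g, e]
    rcases I.bd hw (c.1 i j e) with a | a | a
    · exact (h i j e a.symm).elim
    · exact (h j i (Ne.symm e) (by rw [← neg_sub, a, neg_neg])).elim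
    · simpa [g, e] using a
  have g2 : ∀ i j k, g i k = g i j + g j k := fun i j k => by
    by_cases e1 : i = j
    · simp [g, e1]
    by_cases e2 : j = k
    · simp [g, e2]
    by_cases e3 : i = k
    · subst e3; simp only [g, e1, e2, if_true, if_false]; rw [← neg_sub (x i), I.neg hw]; ring
    simp only [g, e1, e2, e3, if_false, I.ch_add c hw e1 e2 e3]
  refine ⟨univ.filter fun i => ∃ j, g i j = 1, hw, fun i j e => ?_⟩
  rw [show ip w (x i - x j) = g i j from (if_neg e).symm]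
  have g3 : g i j + g j i = 0 := by rw [← g2]; simp [g]
  simp only [ind, mem_filter, mem_univ, true_and]
  have := g1 i j
  split_ifs with a b b
  · obtain ⟨a, ha⟩ := a
    obtain ⟨b, hb⟩ := b
    have := g2 i j a; have := g2 i j b; have := g1 j a; have := g1 i b; omega
  · obtain ⟨a, ha⟩ := a
    have := g2 i j a; have := g1 j a; have := not_exists.1 b a; omega
  · obtain ⟨b, hb⟩ := b
    have := g2 i j b; have := g1 i b; have := not_exists.1 a b; omega
  · have := not_exists.1 a j; have := not_exists.1 b i; omega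

theorem move (h : Ty Ψ ip x w T) (e : T.card = T'.card) :
    Ty Ψ ip x (w - ∑ i ∈ T, x i + ∑ i ∈ T', x i) T' ∧ ∀ z T'', Ty Ψ ip x z T'' →
      ip z (w - ∑ i ∈ T, x i + ∑ i ∈ T', x i) = ip z w - (T ∩ T'').card + (T' ∩ T'').card := by
  simp only [← sum_ind]
  induction hn : (T \ T').card generalizing w T with
  | zero =>
    obtain rfl := eq_of_subset_of_card_le (sdiff_eq_empty_iff_subset.1 (card_eq_zero.1 hn)) e.ge
    simpa using h
  | succ n ih =>
    obtain ⟨i, hi⟩ := card_pos.1 (show 0 < (T \ T').card by omega)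
    obtain ⟨j, hj⟩ := card_pos.1 (show 0 < (T' \ T).card by rw [← card_sdiff_comm e]; omega)
    rw [mem_sdiff] at hi hj
    have ij : j ≠ i := fun c => hj.2 (c ▸ hi.1)
    have a := I.add h.1 (c.1 j i ij) (by rw [h.2 j i ij]; simp [ind, hi.1, hj.2])
    have s : ∀ {A : Type u} [AddCommGroup A] (f : ι → A),
        ∑ k ∈ insert j (T.erase i), f k = f j + (∑ k ∈ T, f k - f i) := fun f => by
      rw [sum_insert (by simp [hj.2]), sum_erase_eq_sub hi.1]
    have := ih (w := w + (x j - x i)) (T := insert j (T.erase i)) ⟨a.1, fun k l e => by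
        rw [I.symm, a.2 _ (c.1 k l e), I.symm, h.2 k l e, I.symm, I.ch_ip c ij e]
        have : ∀ k, ind (insert j (T.erase i)) k = ind T k + ind {j} k - ind {i} k := fun k => by
          by_cases a : k = j <;> by_cases b : k = i <;> simp_all [ind]
        rw [this, this]; ring⟩
      (by rw [card_insert_of_notMem (by simp [hj.2]), card_erase_add_one hi.1, e]) (by
        rw [insert_sdiff_of_mem _ hj.1, erase_sdiff_comm, card_erase_of_mem (mem_sdiff.2 hi), hn]; rfl)
    rw [s, show w + (x j - x i) - (x j + (∑ k ∈ T, x k - x i)) = w - ∑ k ∈ T, x k by abel] at this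
    refine ⟨this.1, fun z T'' hz => ?_⟩
    rw [this.2 z T'' hz, a.2 z hz.1, hz.2 j i ij, sum_insert (by simp [hj.2]), sum_erase_eq_sub hi.1]
    ring

theorem no1 (hm : ∀ y : Option ι → V, ¬ Ch Ψ ip y) (h : Ty Ψ ip x w T) : T.card ≠ 1 ∧ Tᶜ.card ≠ 1 := by
  suffices H : ∀ w T, Ty Ψ ip x w T → T.card ≠ 1 from ⟨H _ _ h, H _ _ (I.ty_neg h c)⟩
  intro w T h e
  obtain ⟨i, rfl⟩ := card_eq_one.1 e
  have t1 : ∀ j, Ty Ψ ip x (x j - (x i - w)) {j} := fun j => by
    convert (I.move c h (T' := {j}) rfl).1 using 1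
    simp only [sum_singleton]; abel
  have t2 : ∀ j k, j ≠ k → ip (x j - (x i - w)) (x k - (x i - w)) = 1 := fun j k e => by
    have := (I.move c (t1 j) (T' := {k}) rfl).2 _ _ (t1 j)
    rw [sum_singleton, sum_singleton, I.self, show x j - (x i - w) - x j + x k = x k - (x i - w) by abel]
      at this
    simpa [inter_singleton_of_notMem, e] using this
  refine hm (fun o => o.elim (x i - w) x) ⟨?_, ?_⟩
  · rintro (_ | j) (_ | k) e
    · exact (e rfl).elim
    · exact neg_sub (x k) _ ▸ I.neg_mem (t1 k).1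
    · exact (t1 j).1
    · exact c.1 j k (by simpa using e)
  · rintro (_ | j) (_ | k) (_ | l) e1 e2 e3 <;> simp only [ne_eq, not_true, Option.some.injEq] at e1 e2 e3 <;>
      simp only [Option.elim]
    · rw [← neg_sub (x k), ← neg_sub (x l), I.neg (I.neg_mem (t1 k).1), I.neg' _ (t1 l).1, t2 k l e3]; rfl
    · rw [(t1 j).2 j l e2]; simp [ind, Ne.symm e2]
    · rw [I.symm, (t1 j).2 j k e1]; simp [ind, Ne.symm e1]
    · exact c.2 j k l e1 e2 e3

end IP

end H61.O7S
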