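import Cfsg.Agent.H61.O7S3a

/-! O7 tower, job S3, part 2: long chains. -/

set_option autoImplicit false
set_option linter.unusedSectionVars false

namespace H61.O7S

open H56 H31.O7 QuadraticMap Module Finset

universe u

variable {K : Type u} [Field K] {V : Type u} [AddCommGroup V] [Module K V] {Q : QuadraticForm K V}
  {Ψ : Set V} {N : K} {u v w z : V} {ip : V → V → ℤ} {ι : Type} [Fintype ι] [DecidableEq ι]
  {x : ι → V} {T T' : Finset ι} {i j k l : ι}

theorem card_ne (a : ι) : Fintype.card {i // i ≠ a} + 1 = Fintype.card ι := by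
  have := Fintype.card_pos_iff.2 ⟨a⟩
  simp; omega

theorem Ty.comp (h : Ty Ψ ip x w T) (p : ι → Prop) [DecidablePred p] :
    Ty Ψ ip (x ∘ (Subtype.val : Subtype p → ι)) w (T.subtype p) :=
  ⟨h.1, fun i j e => by
    rw [Function.comp, Function.comp, h.2 _ _ (Subtype.val_injective.ne e)]; simp [ind]⟩

theorem Ty.univ (h : Ty Ψ ip x w univ) : Ty Ψ ip x w ∅ := by simpa [Ty, ind] using h

theorem polar_ss {f : ι → ℤ} (h : ∀ i j, polar Q u (x i - x j) = (f i - f j : ℤ) * N) (T : Finset ι) :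
    polar Q u ((Fintype.card ι : K) • ∑ i ∈ T, x i - (T.card : K) • ∑ i, x i) =
      (Fintype.card ι * ∑ i ∈ T, f i - T.card * ∑ i, f i : ℤ) * N := by
  have e : (Fintype.card ι : K) • ∑ i ∈ T, x i - (T.card : K) • ∑ i, x i =
      ∑ i ∈ T, ∑ j, (x i - x j) := by
    simp [sum_sub_distrib, smul_sum, Nat.cast_smul_eq_nsmul]
  have e' : (Fintype.card ι * ∑ i ∈ T, f i - T.card * ∑ i, f i : ℤ) = ∑ i ∈ T, ∑ j, (f i - f j) := by
    simp [sum_sub_distrib, mul_sum]
  rw [e, e', ← polarBilin_apply_apply]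
  simp only [map_sum, polarBilin_apply_apply, h, Int.cast_sum, sum_mul]

namespace IP
variable (I : IP Q Ψ N ip) (c : Ch Ψ ip x)
include I c

theorem ty_pol (h : Ty Ψ ip x w T) (i j : ι) :
    polar Q w (x i - x j) = (ind T i - ind T j : ℤ) * N := by
  by_cases e : i = j
  · simp [e]
  · rw [I.pol h.1 (c.1 i j e), h.2 i j e]

theorem ch_pol (h : i ≠ j) (k l : ι) : polar Q (x i - x j) (x k - x l) =
    (ind {i} k - ind {j} k - (ind {i} l - ind {j} l) : ℤ) * N := by
  by_cases e : k = l
  · simp [e]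
  · rw [I.pol (c.1 i j h) (c.1 k l e), I.ch_ip c h e]

theorem ty_add (h : Ty Ψ ip x w T) (h' : Ty Ψ ip x z T') (e : ip w z = -1) (d : Disjoint T T') :
    Ty Ψ ip x (w + z) (T ∪ T') :=
  ⟨(I.add h.1 h'.1 e).1, fun i j ij => by
    have : ∀ k, ind (T ∪ T') k = ind T k + ind T' k := fun k => by
      have : k ∈ T → k ∉ T' := fun a => disjoint_left.1 d a
      by_cases a : k ∈ T <;> by_cases b : k ∈ T' <;> simp_all [ind]
    rw [I.symm, (I.add h.1 h'.1 e).2 _ (c.1 i j ij), I.symm, h.2 i j ij, I.symm, h'.2 i j ij, this, this]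
    ring⟩

theorem indep (N0 : N ≠ 0) (hn : (Fintype.card ι : K) ≠ 0) (a : ι) :
    LinearIndependent K fun i : {i // i ≠ a} => x i - x a := by
  refine Fintype.linearIndependent_iff.2 fun g hg => ?_
  have h : ∀ j, g j = -∑ i, g i := fun j => by
    have := congrArg (Q.polarBilin (x j - x a)) hg
    simp only [map_sum, map_smul, polarBilin_apply_apply, I.ch_pol c j.2, map_zero, smul_eq_mul] at this
    have e : ∀ i : {i // i ≠ a}, g i * (((ind {j.1} i.1 - ind {a} i.1 - (ind {j.1} a - ind {a} a) : ℤ) : K) * N)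
        = ((if i = j then g j else 0) + g i) * N := fun i => by
      by_cases e : i = j
      · simp [e, ind, j.2, j.2.symm]; ring
      · simp [e, ind, i.2, j.2.symm, Subtype.val_injective.ne e]
    simp only [e, ← sum_mul, sum_add_distrib, sum_ite_eq', mem_univ, if_true] at this
    linear_combination (mul_eq_zero.1 this).resolve_right N0
  have h2 : ∑ i, g i = 0 := by
    have := sum_congr rfl fun j (_ : j ∈ univ) => h j
    rw [sum_const, card_univ, nsmul_eq_mul] at this
    refine (mul_eq_zero.1 ?_).resolve_left hn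
    rw [← card_ne a]; push_cast; linear_combination this
  intro j; rw [h j, h2, neg_zero]

end IP

variable [FiniteDimensional K V] (S : SL Q Ψ N) (I : IP Q Ψ N ip)
include S I

theorem no10 {n : ℕ} (hn : 10 ≤ n) (x : Fin n → V) : ¬ Ch Ψ ip x := fun c => by
  have h : ∀ m (hm : m + 1 ≤ n), 8 ≤ m → ((m + 1 : ℕ) : K) = 0 := fun m hm h8 => by
    by_contra e
    have := (I.indep (c.comp (Fin.castLE_injective hm)) S.ne (by simpa using e) 0).fintype_card_le_finrank
    have := card_ne (0 : Fin (m + 1))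
    have := S.dim
    simp only [Fintype.card_fin] at *
    omega
  have h1 := h 8 (by omega) le_rfl
  have h2 := h 9 hn (by omega)
  push_cast at h1 h2
  exact one_ne_zero (α := K) (by linear_combination h2 - h1)

theorem exists_max : ∃ (n : ℕ) (x : Fin n → V), 2 ≤ n ∧ n ≤ 9 ∧ Ch Ψ ip x ∧
    ∀ y : Option (Fin n) → V, ¬ Ch Ψ ip y := by
  by_contra! h
  have : ∀ n, 2 ≤ n → n ≤ 10 → ∃ x : Fin n → V, Ch Ψ ip x := by
    refine Nat.le_induction (fun _ => ?_) fun n hn ih h' => ?_
    · obtain ⟨u, hu⟩ := S.nonempty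
      refine ⟨![u, 0], fun i j e => ?_, fun i j k a b c => by omega⟩
      fin_cases i <;> fin_cases j <;> simp_all [I.neg_mem hu]
    · obtain ⟨x, c⟩ := ih (by omega)
      obtain ⟨y, d⟩ := h n x hn (by omega) c
      exact ⟨_, d.comp (finSuccEquiv n).injective⟩
  obtain ⟨x, c⟩ := this 10 (by omega) le_rfl
  exact no10 S I le_rfl x c

variable (c : Ch Ψ ip x)
include c

theorem eight (h8 : Fintype.card ι = 8) (h : Ty Ψ ip x w T) :
    (8 : K) • w = (8 : K) • ∑ i ∈ T, x i - (T.card : K) • ∑ i, x i ∧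
      (T.card = 1 ∨ T.card = 4 ∨ T.card = 7) := by
  have h2 := S.two
  obtain ⟨a⟩ : Nonempty ι := Fintype.card_pos_iff.1 (by omega)
  have e8 : (Fintype.card ι : K) = 8 := by rw [h8]; rfl
  have n8 : (8 : K) ≠ 0 := by
    rw [show (8 : K) = 2 ^ 3 by norm_num]; exact pow_ne_zero _ h2
  have sp := (I.indep c S.ne (e8 ▸ n8) a).span_eq_top_of_card_eq_finrank' (by
    have := card_ne a; rw [S.dim]; omega)
  have e : (8 : K) • w = (8 : K) • ∑ i ∈ T, x i - (T.card : K) • ∑ i, x i := by
    rw [← sub_eq_zero]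
    refine S.nd.1 _ fun y => ?_
    have : ∀ y ∈ Submodule.span K (Set.range fun i : {i // i ≠ a} => x i - x a), polar Q y
        ((8 : K) • w - ((8 : K) • ∑ i ∈ T, x i - (T.card : K) • ∑ i, x i)) = 0 := by
      refine mem_perp.1 (mem_perp_span.2 ?_)
      rintro _ ⟨i, rfl⟩
      rw [polar_sub_right, polar_smul_right, polar_comm, I.ty_pol c h, ← e8,
        polar_ss (I.ch_pol c i.2)]
      simp [ind, sum_sub_distrib, mul_sub, sub_mul]
    rw [polarBilin_apply_apply, polar_comm, this y (sp ▸ trivial)]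
  refine ⟨e, ?_⟩
  have e2 := congrArg (polar Q w) e
  rw [← e8, polar_ss (I.ty_pol c h), polar_smul_right, polar_self', S.norm w h.1, sum_ind, sum_ind,
    inter_self, univ_inter, h8] at e2
  have e3 : (T.card : K) = 4 := by
    refine sub_eq_zero.1 (pow_eq_zero_iff two_ne_zero |>.1 (mul_right_cancel₀ S.ne ?_))
    rw [smul_eq_mul] at e2; push_cast at e2; linear_combination e2
  have := card_le_univ T
  rw [h8] at this
  generalize T.card = k at *
  have n4 : (4 : K) ≠ 0 := fun e => n8 (by linear_combination 2 * e)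
  interval_cases k <;> push_cast at e3 <;> simp
  exacts [n4 e3.symm, h2 (by linear_combination -e3), one_ne_zero (α := K) (by linear_combination -e3),
    one_ne_zero (α := K) (by linear_combination e3), h2 (by linear_combination e3),
    n4 (by linear_combination e3)]

theorem nine (h9 : Fintype.card ι = 9) : ¬ Ty Ψ ip x w T := fun h => by
  have H : ∀ a, (T.erase a).card = 1 ∨ (T.erase a).card = 4 ∨ (T.erase a).card = 7 := fun a => by
    have := (eight S I (c.comp Subtype.val_injective) (by have := card_ne a; omega)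
      (h.comp (· ≠ a))).2
    rwa [card_subtype, filter_ne'] at this
  obtain ⟨b⟩ : Nonempty ι := Fintype.card_pos_iff.1 (by omega)
  obtain ⟨a, ha⟩ := card_pos.1 (show 0 < T.card by have := H b; have := card_erase_le (s := T) (a := b); omega)
  have h1 := H a
  rw [card_erase_of_mem ha] at h1
  obtain ⟨d, hd⟩ := card_pos.1 (show 0 < Tᶜ.card by rw [card_compl]; omega)
  have h2 := H d
  rw [erase_eq_of_notMem (mem_compl.1 hd)] at h2
  omega

omit S c [FiniteDimensional K V] in
theorem eq_RA {n : ℕ} {x : Fin n → V} (c : Ch Ψ ip x) (h : ∀ w T, ¬ Ty Ψ ip x w T) : Ψ = RA x :=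
  Set.ext fun w => ⟨fun hw => by
    by_contra e
    exact (I.exists_ty c hw fun i j a b => e ⟨i, j, a, b⟩).elim (h w), fun ⟨i, j, a, b⟩ => b ▸ c.1 i j a⟩

omit c in
theorem eq_RE {x : Fin 8 → V} (c : Ch Ψ ip x) (hm : ∀ y : Option (Fin 8) → V, ¬ Ch Ψ ip y)
    {T : Finset (Fin 8)} (h : Ty Ψ ip x w T) : Ψ = RE (K := K) x := by
  have h2 := S.two
  have H : ∀ {w T}, Ty Ψ ip x w T → T.card = 4 ∧ (2 : K) • w = ∑ i, if i ∈ T then x i else -x i :=
    fun {w T} h => by
      obtain ⟨e, e'⟩ := eight S I c (by simp) h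
      have := I.no1 c hm h
      rw [card_compl, Fintype.card_fin] at this
      have e4 : T.card = 4 := by omega
      refine ⟨e4, smul_right_injective V (mul_ne_zero h2 h2) ?_⟩
      rw [e4, ← sum_add_sum_compl T] at e
      rw [← sum_add_sum_compl T, sum_congr rfl fun i (hi : i ∈ T) => if_pos hi,
        sum_congr rfl fun i (hi : i ∈ Tᶜ) => if_neg (mem_compl.1 hi), sum_neg_distrib]
      push_cast at e
      linear_combination (norm := module) e
  refine Set.ext fun v => ⟨fun hv => ?_, ?_⟩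
  · by_cases e : v ∈ RA x
    · exact .inl e
    obtain ⟨T, t⟩ := I.exists_ty c hv fun i j a b => e ⟨i, j, a, b⟩
    exact .inr ⟨T, H t⟩
  · rintro (⟨i, j, a, rfl⟩ | ⟨T', e, e'⟩)
    · exact c.1 i j a
    have t := (I.move c h ((H h).1.trans e.symm)).1
    exact smul_right_injective V h2 ((H t).2.trans e'.symm) ▸ t.1

end H61.O7S
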