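import Cfsg.Agent.H39.PSSpec

/-! PS tower (row S0725): the slot `NUa`, a numerical check. -/

set_option autoImplicit false

namespace H61.PSNUa

open Finset H39.PS

/-- evaluate `n` first -/
def force (n : ℕ) (f : ℕ → Bool) : Bool := Nat.rec (f 0) (fun k _ => f k.succ) n

theorem force_eq (n : ℕ) (f : ℕ → Bool) : force n f = f n := by cases n <;> rfl

def chk (n1 n2 d : ℕ) : ℕ → ℕ → ℕ → ℕ → Bool
  | 0, _, _, _ => false
  | f + 1, s, q, P => cond (Nat.ble (2 * n2 * n2 * q) (2 ^ 64)) (Nat.ble (2 * P) (4 ^ n1))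
      (force (P * (2 ^ 64 + (n2 - 1 - s) * q) / 2 ^ 64 + 1) fun P' =>
        force (q * (n2 - d - s) / (n2 - 2 - s) + 1) fun q' =>
          force (s + 1) fun s' => chk n1 n2 d f s' q' P')

theorem Qu_nonneg (n d s : ℕ) : 0 ≤ Qu n d s := by unfold Qu; positivity

theorem Qu_succ (n d s : ℕ) :
    Qu n d (s + 1) = ((n - d - s : ℕ) : ℝ) / ((n - 2 - s : ℕ) : ℝ) * Qu n d s := by
  simp only [Qu, Nat.descFactorial_succ, Nat.cast_mul]
  rw [mul_div_mul_comm]

theorem ratio_le {n n2 d d0 : ℕ} (s : ℕ) (h : n ≤ n2) (hd : d0 ≤ d) (h2 : 2 ≤ d0) :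
    ((n - d - s : ℕ) : ℝ) / ((n - 2 - s : ℕ) : ℝ) ≤
      ((n2 - d0 - s : ℕ) : ℝ) / ((n2 - 2 - s : ℕ) : ℝ) := by
  rcases Nat.eq_zero_or_pos (n - d - s) with h0 | h0
  · rw [h0]; simp only [Nat.cast_zero, zero_div]; positivity
  · have a1 : (0 : ℝ) < ((n - 2 - s : ℕ) : ℝ) := by exact_mod_cast (by omega : 0 < n - 2 - s)
    have a2 : (0 : ℝ) < ((n2 - 2 - s : ℕ) : ℝ) := by exact_mod_cast (by omega : 0 < n2 - 2 - s)
    rw [div_le_div_iff₀ a1 a2]
    obtain ⟨a, ha⟩ : ∃ a, a = n - d - s := ⟨_, rfl⟩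
    obtain ⟨e, he⟩ : ∃ e, d0 = 2 + e := ⟨d0 - 2, by omega⟩
    obtain ⟨e', he'⟩ : ∃ e', d = d0 + e' := ⟨d - d0, by omega⟩
    obtain ⟨c, hc⟩ : ∃ c, n2 = n + c := ⟨n2 - n, by omega⟩
    rw [← ha, show n2 - 2 - s = a + e + e' + c by omega, show n2 - d0 - s = a + e' + c by omega,
      show n - 2 - s = a + e + e' by omega]
    have : a * (a + e + e' + c) ≤ (a + e' + c) * (a + e + e') := by nlinarith [Nat.zero_le (c * e)]
    exact_mod_cast this

theorem Qu_anti {n d : ℕ} (h2 : 2 ≤ d) : Antitone (Qu n d) := antitone_nat_of_succ_le fun s => by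
  rw [Qu_succ]
  refine mul_le_of_le_one_left (Qu_nonneg _ _ _) (div_le_one_of_le₀ ?_ (by positivity))
  exact_mod_cast (by omega : n - d - s ≤ n - 2 - s)

/-- the tail of the product -/
noncomputable def Tl (n d s : ℕ) : ℝ := ∏ i ∈ Ico s n, (1 + ((n - 1 - i : ℕ) : ℝ) * Qu n d i)

theorem Tl_nonneg (n d s : ℕ) : 0 ≤ Tl n d s :=
  prod_nonneg fun i _ => by have := Qu_nonneg n d i; positivity

theorem Tl_succ (n d s : ℕ) :
    Tl n d s = (1 + ((n - 1 - s : ℕ) : ℝ) * Qu n d s) * Tl n d (s + 1) := by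
  unfold Tl
  rcases lt_or_ge s n with h | h
  · rw [prod_eq_prod_Ico_succ_bot h]
  · rw [Ico_eq_empty_of_le h, Ico_eq_empty_of_le (h.trans s.le_succ), show n - 1 - s = 0 by omega]
    simp

theorem Tl_le {n d s : ℕ} (h2 : 2 ≤ d) (h : 2 * n * n * Qu n d s ≤ 1) : Tl n d s ≤ 2 := by
  have h0 := Qu_nonneg n d s
  have h1 : Tl n d s ≤ ∏ _i ∈ Ico s n, Real.exp (n * Qu n d s) := by
    refine prod_le_prod (fun i _ => by have := Qu_nonneg n d i; positivity) fun i hi => ?_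
    refine le_trans ?_ (Real.add_one_le_exp _)
    rw [add_comm]
    refine add_le_add_left (mul_le_mul ?_ (Qu_anti h2 (mem_Ico.1 hi).1) (Qu_nonneg _ _ _)
      (by positivity)) _
    exact_mod_cast (by omega : n - 1 - i ≤ n)
  rw [prod_const, ← Real.exp_nat_mul, Nat.card_Ico] at h1
  refine h1.trans ?_
  rw [← Real.exp_log (show (0 : ℝ) < 2 by norm_num), Real.exp_le_exp]
  have h3 : ((n - s : ℕ) : ℝ) ≤ n := by exact_mod_cast Nat.sub_le n s
  have h4 := mul_le_mul_of_nonneg_right h3 (show 0 ≤ n * Qu n d s by positivity)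
  have := Real.log_two_gt_d9
  nlinarith

theorem le_div_succ (a b : ℕ) : (a : ℝ) / b ≤ ((a / b + 1 : ℕ) : ℝ) := by
  rcases Nat.eq_zero_or_pos b with h | h
  · simp [h]
  · rw [div_le_iff₀ (by exact_mod_cast h)]
    have := Nat.lt_div_mul_add (a := a) h
    exact_mod_cast (by nlinarith : a ≤ (a / b + 1) * b)

theorem chk_ok {n1 n2 d0 n d : ℕ} (h : n ≤ n2) (hd : d0 ≤ d) (h2 : 2 ≤ d0) (f : ℕ) :
    ∀ s q P : ℕ, chk n1 n2 d0 f s q P = true → Qu n d s ≤ q / 2 ^ 64 → P * Tl n d s ≤ 4 ^ n1 := by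
  induction f with
  | zero => intro s q P hc; simp [chk] at hc
  | succ f ih =>
    intro s q P hc hq
    have hn : (n : ℝ) ≤ n2 := by exact_mod_cast h
    have h0 := Qu_nonneg n d s
    rw [chk] at hc
    simp only [force_eq] at hc
    cases hb : Nat.ble (2 * n2 * n2 * q) (2 ^ 64) with
    | true =>
      rw [hb, cond_true, Nat.ble_eq] at hc
      rw [Nat.ble_eq] at hb
      have hb' : (2 * n2 * n2 * q : ℝ) ≤ 2 ^ 64 := by exact_mod_cast hb
      have hc' : (2 * P : ℝ) ≤ 4 ^ n1 := by exact_mod_cast hc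
      have : Tl n d s ≤ 2 := Tl_le (h2.trans hd) (by
        calc (2 * n * n * Qu n d s : ℝ) ≤ 2 * n2 * n2 * (q / 2 ^ 64) := by gcongr
          _ ≤ 1 := by rw [← mul_div_assoc, div_le_one (by positivity)]; exact hb')
      calc P * Tl n d s ≤ P * 2 := by gcongr
        _ ≤ _ := by linarith
    | false =>
      rw [hb, cond_false] at hc
      have := ih _ _ _ hc (by
        rw [Qu_succ]
        calc _ ≤ ((n2 - d0 - s : ℕ) : ℝ) / ((n2 - 2 - s : ℕ) : ℝ) * (q / 2 ^ 64) :=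
              mul_le_mul (ratio_le s h hd h2) hq h0 (by positivity)
          _ = ((q * (n2 - d0 - s) : ℕ) : ℝ) / ((n2 - 2 - s : ℕ) : ℝ) / 2 ^ 64 := by
              push_cast; ring
          _ ≤ _ := by gcongr; exact le_div_succ _ _)
      refine le_trans ?_ this
      rw [Tl_succ, ← mul_assoc]
      refine mul_le_mul_of_nonneg_right (le_trans ?_ (le_div_succ _ _)) (Tl_nonneg _ _ _)
      have h3 : ((n - 1 - s : ℕ) : ℝ) ≤ ((n2 - 1 - s : ℕ) : ℝ) := by
        exact_mod_cast (by omega : n - 1 - s ≤ n2 - 1 - s)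
      calc (P : ℝ) * (1 + ((n - 1 - s : ℕ) : ℝ) * Qu n d s)
          ≤ P * (1 + ((n2 - 1 - s : ℕ) : ℝ) * (q / 2 ^ 64)) := by gcongr
        _ = _ := by push_cast; ring

def cov : ℕ → List (ℕ × ℕ) → Bool
  | n1, [] => Nat.ble (2 ^ 17) n1
  | n1, (n2, d) :: l => Nat.ble 2 d && Nat.blt (3 * (d - 1) * (d - 1)) (2 * n1) &&
      chk n1 n2 d 14000 0 (2 ^ 64) 1 && cov (n2 + 1) l

theorem cov_ok (l : List (ℕ × ℕ)) : ∀ n1, cov n1 l = true → ∀ n, n1 ≤ n → n < 2 ^ 17 → NumU n := by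
  induction l with
  | nil => intro n1 h n h1 h2; rw [cov, Nat.ble_eq] at h; omega
  | cons a l ih =>
    obtain ⟨n2, d0⟩ := a
    intro n1 h n h1 h2
    simp only [cov, Bool.and_eq_true, Nat.ble_eq, Nat.blt_eq] at h
    obtain ⟨⟨⟨a1, a2⟩, a3⟩, a4⟩ := h
    rcases le_or_gt n n2 with h3 | h3
    · intro d hd
      have h4 : d0 ≤ d := by
        by_contra hn
        have : d ≤ d0 - 1 := by omega
        nlinarith [Nat.mul_le_mul this this]
      have := chk_ok h3 h4 a1 _ _ _ _ a3 (by simp [Qu]; norm_num)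
      rw [Tl, Nat.cast_one, one_mul, ← range_eq_Ico] at this
      exact this.trans (pow_le_pow_right₀ (by norm_num) h1)
    · exact ih _ a4 n h3 h2

theorem cov_true : cov 22 [(22, 4), (23, 4), (24, 4), (28, 5), (31, 5), (33, 5), (35, 5), (36, 5),
    (37, 5), (42, 6), (46, 6), (49, 6), (51, 6), (53, 6), (54, 6), (61, 7), (66, 7), (70, 7), (73, 7),
    (82, 8), (90, 8), (96, 8), (109, 9), (119, 9), (127, 9), (144, 10), (158, 10), (180, 11),
    (199, 11), (227, 12), (266, 13), (316, 14), (378, 15), (454, 16), (570, 18), (735, 20),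
    (995, 23), (1386, 26), (2064, 31), (3330, 38), (5906, 48), (11772, 63), (27745, 89),
    (82058, 137), (131071, 234)] = true := by decide +kernel

theorem jobNUa : NUa := cov_ok _ _ cov_true

end H61.PSNUa
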