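/- 2-groups of class two and exponent four: `|G| ≤ |Ω₁|³`. -/
import Cfsg.Agent.H86.R2Suz
import Cfsg.Agent.H3.FrattiniP

set_option autoImplicit false

open Subgroup
open scoped commutatorElement

namespace H61.Sq

variable {G : Type*} [Group G] [Finite G]

theorem index_le {Z N : Subgroup G} (hc : Z ≤ center G) (h0 : ∀ z ∈ Z, z ^ 2 = 1)
    (h1 : ∀ x y : G, ⁅x, y⁆ ∈ Z) (h2 : ∀ x : G, x ^ 2 ∈ Z) (hZ : Z ≤ N)
    (hN : ∀ x : G, x ^ 2 = 1 → x ∈ N) : N.index ≤ Nat.card Z ^ 2 := by
  obtain ⟨d, l, c, rfl⟩ := H27.exists_cform 2 Z hc h0 h1 h2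
  obtain ⟨U, hU⟩ := Submodule.exists_isCompl (c.img 2 N)
  have hn : N.Normal := ⟨fun n hn g => by
    have := mul_mem (hZ (h1 g n)) hn
    simpa [commutatorElement_def] using this⟩
  have h3 : c.pre 2 U ⊔ N = ⊤ := eq_top_iff.2 fun x _ => by
    obtain ⟨a, ha, b, hb, e⟩ := Submodule.mem_sup.1 (hU.sup_eq_top.ge (Submodule.mem_top (x := c.π x)))
    obtain ⟨n, hn, rfl⟩ := (c.mem_img 2).1 ha
    have : n⁻¹ * x ∈ c.pre 2 U := by
      rw [c.mem_pre, c.π_mul, c.π_inv, ← e, neg_add_cancel_left]
      exact hb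
    exact (mul_mem_cancel_left (mem_sup_right (inv_mem hn))).1 (mem_sup_left this)
  rw [← relIndex_top_right, ← h3, relIndex_sup_right]
  refine (relIndex_le_of_le_left hZ index_ne_zero_of_finite).trans
    ((H86.index_le_sq (Z := c.Z.subgroupOf (c.pre 2 U)) (fun x => ⟨fun hx => Subtype.ext
      ((pow_two _).symm.trans (h0 _ hx)), fun hx => ?_⟩) (fun x hx => mem_center_iff.2 fun y =>
      Subtype.ext (mem_center_iff.1 (hc hx) y)) (fun x y => h1 x y) fun x => h2 x).trans
      (Nat.pow_le_pow_left ?_ 2))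
  · exact c.mem_Z_iff.2 ((c.π_eq_zero _).1 (Submodule.disjoint_def.1 hU.disjoint _
      ((c.mem_img 2).2 ⟨x, hN x ((pow_two _).trans (congrArg Subtype.val hx)), rfl⟩)
      ((c.mem_pre 2).1 x.2)))
  · rw [← card_map_of_injective (c.pre 2 U).subtype_injective, subgroupOf_map_subtype]
    exact card_le_of_le inf_le_left

theorem card_le_cube (hG : IsPGroup 2 G) (hcl : commutator G ≤ center G) (hexp : ∀ x : G, x ^ 4 = 1)
    {N : Subgroup G} (hN : ∀ x, x ∈ N ↔ x ^ 2 = 1) :
    N.index ≤ Nat.card N ^ 2 ∧ (¬ Cfsg.IsSpecial 2 G → N.index < Nat.card N ^ 2) := by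
  have hc : ∀ x y : G, ⁅x, y⁆ ∈ center G := fun x y =>
    hcl (commutator_mem_commutator (mem_top x) (mem_top y))
  have hc' : ∀ g x y : G, Commute g ⁅x, y⁆ := fun g x y => mem_center_iff.1 (hc x y) g
  have h1 : ∀ x y : G, ⁅x, y⁆ ^ 2 = 1 := fun x y => by
    have := H9.mul_pow_of_commute_commutator (hc' y x y) (hc' x x y) 4
    rw [hexp, hexp, hexp, show Nat.choose 4 2 = 4 + 2 from rfl, pow_add, hexp] at this
    simpa using this.symm
  have h2 : ∀ x : G, x ^ 2 ∈ center G := fun x => mem_center_iff.2 fun y => by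
    have := h1 x y
    rw [← H9.commutatorElement_pow_left (hc' x x y), commutatorElement_eq_one_iff_mul_comm] at this
    exact this.symm
  have h3 : ∀ x : G, x ^ 2 ∈ N := fun x => (hN _).2 (by rw [← pow_mul, hexp])
  have h4 : commutator G ≤ N := commutator_le.2 fun x _ y _ => (hN _).2 (h1 x y)
  have h5 := index_le (Z := N ⊓ center G) (N := N) inf_le_right (fun z hz => (hN z).1 hz.1)
    (fun x y => ⟨(hN _).2 (h1 x y), hc x y⟩) (fun x => ⟨h3 x, h2 x⟩) inf_le_left
    fun x => (hN x).2
  refine ⟨h5.trans (Nat.pow_le_pow_left (card_le_of_le inf_le_left) 2), fun hs => ?_⟩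
  by_cases h6 : N ≤ center G
  swap
  · exact h5.trans_lt (Nat.pow_lt_pow_left (lt_of_le_of_ne (card_le_of_le inf_le_left)
      fun e => h6 (inf_eq_left.1 (eq_of_le_of_card_ge inf_le_left e.ge))) two_ne_zero)
  have hsq : ∀ x y : G, (x * y) ^ 2 = ⁅y, x⁆ * (x ^ 2 * y ^ 2) := fun x y => by
    simpa [mul_assoc] using H9.mul_pow_of_commute_commutator (hc' x y x) (hc' y y x) 2
  have hd : ∀ x y : G, ⁅x, y⁆ ∈ commutator G := fun x y =>
    commutator_mem_commutator (mem_top x) (mem_top y)
  by_cases h7 : N ≤ commutator G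
  · have e1 := h4.antisymm h7
    obtain ⟨z, hz, hzN⟩ : ∃ z ∈ center G, z ∉ N := by
      by_contra! h8
      have e2 : center G = N := le_antisymm h8 h6
      exact hs ⟨hG, e2 ▸ (H3.frattini_le_of_elementary_quotient N h4 h3).antisymm
        (h7.trans (H3.commutator_le_frattini_pgroup hG)), e2 ▸ e1⟩
    have hW : zpowers (z ^ 2) ≤ N := zpowers_le_of_mem (h3 z)
    have : (zpowers (z ^ 2)).Normal := ⟨fun n hn g => by
      rwa [mem_center_iff.1 (h6 (hW hn)) g, mul_inv_cancel_right]⟩
    have o2 : orderOf (z ^ 2) = 2 := orderOf_eq_prime ((hN _).1 (h3 z)) fun e => hzN ((hN z).2 e)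
    set π := QuotientGroup.mk' (zpowers (z ^ 2))
    have hπ : Function.Surjective π := QuotientGroup.mk'_surjective _
    have hk : π.ker = zpowers (z ^ 2) := QuotientGroup.ker_mk' _
    have h8 := index_le (Z := N.map π) (N := (zpowers z ⊔ N).map π) (by
      rintro _ ⟨x, hx, rfl⟩
      refine mem_center_iff.2 fun y => ?_
      obtain ⟨y, rfl⟩ := hπ y
      rw [← map_mul, ← map_mul, mem_center_iff.1 (h6 hx) y]) (by
      rintro _ ⟨x, hx, rfl⟩
      rw [← map_pow, (hN x).1 hx, map_one]) (fun x y => by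
      obtain ⟨x, rfl⟩ := hπ x
      obtain ⟨y, rfl⟩ := hπ y
      exact ⟨_, (hN _).2 (h1 x y), map_commutatorElement π x y⟩) (fun x => by
      obtain ⟨x, rfl⟩ := hπ x
      exact ⟨_, h3 x, map_pow π x 2⟩) (map_mono le_sup_right) fun x hx => by
      obtain ⟨x, rfl⟩ := hπ x
      refine mem_map_of_mem π ?_
      rw [← map_pow, ← MonoidHom.mem_ker, hk] at hx
      obtain ⟨k, hk2, e⟩ : ∃ k < 2, (z ^ 2) ^ k = x ^ 2 := by
        classical
        simpa [o2, Nat.lt_succ_iff] using mem_zpowers_iff_mem_range_orderOf.1 hx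
      rcases (show x ^ 2 = 1 ∨ x ^ 2 = z ^ 2 by interval_cases k <;> simp [← e]) with e | e
      · exact mem_sup_right ((hN x).2 e)
      · refine (mul_mem_cancel_left (mem_sup_left (mem_zpowers z))).1 (mem_sup_right ((hN _).2 ?_))
        rw [(show Commute z x from (mem_center_iff.1 hz x).symm).mul_pow, e, ← pow_add, hexp]
    rw [index_map_eq _ hπ (hk.le.trans (hW.trans le_sup_right)), ← relIndex_ker, hk] at h8
    have : N.Normal := ⟨fun n hn g => by
      rwa [mem_center_iff.1 (h6 hn) g, mul_inv_cancel_right]⟩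
    have e2 := relIndex_mul_index (le_sup_right : N ≤ zpowers z ⊔ N)
    have e3 : 2 * (zpowers (z ^ 2)).relIndex N = Nat.card N := by
      rw [← card_mul_index ((zpowers (z ^ 2)).subgroupOf N),
        Nat.card_congr (subgroupOfEquivOfLe hW).toEquiv, Nat.card_zpowers, o2]
      rfl
    have e4 : N.relIndex (zpowers z) * 2 ≤ 4 := by
      have e5 := card_mul_index (N.subgroupOf (zpowers z))
      have e6 : 1 < Nat.card (N.subgroupOf (zpowers z)) := Finite.one_lt_card_iff_nontrivial.2
        ⟨⟨⟨⟨z ^ 2, pow_mem (mem_zpowers z) 2⟩, h3 z⟩, 1, fun e => hzN ((hN z).2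
          (congrArg (fun y => y.1.1) e))⟩⟩
      have e7 := Nat.le_of_dvd four_pos (orderOf_dvd_of_pow_eq_one (hexp z))
      rw [Nat.card_zpowers] at e5
      exact (Nat.mul_le_mul_left _ e6).trans ((mul_comm _ _).trans e5 ▸ e7)
    rw [relIndex_sup_right] at e2
    have e5 : 0 < (zpowers (z ^ 2)).relIndex N := by
      have := Nat.card_pos (α := N)
      omega
    rw [← e2, ← e3]
    nlinarith
  · let K : Subgroup G :=
      { carrier := {x | x ^ 2 ∈ commutator G}
        one_mem' := by simp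
        mul_mem' := fun {x y} hx hy => by
          change (x * y) ^ 2 ∈ commutator G
          rw [hsq]
          exact mul_mem (commutator_mem_commutator (mem_top y) (mem_top x)) (mul_mem hx hy)
        inv_mem' := fun {x} hx => by
          change x⁻¹ ^ 2 ∈ commutator G
          rw [inv_pow]
          exact inv_mem hx }
    have hNK : N ≤ K := fun x hx => show x ^ 2 ∈ commutator G from (hN x).1 hx ▸ one_mem _
    have hDK := h4.trans hNK
    have h8 := index_le (G := K) (Z := (commutator G).subgroupOf K) (N := N.subgroupOf K)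
      (fun x hx => mem_center_iff.2 fun y => Subtype.ext (mem_center_iff.1 (hcl hx) y))
      (fun x hx => Subtype.ext ((hN _).1 (h4 hx)))
      (fun x y => commutator_mem_commutator (mem_top (x : G)) (mem_top (y : G))) (fun x => x.2)
      (comap_mono h4) fun x hx => (hN _).2 (congrArg Subtype.val hx)
    rw [Nat.card_congr (subgroupOfEquivOfLe hDK).toEquiv] at h8
    have h9 : K.index ≤ (commutator G).relIndex N := by
      refine Nat.card_le_card_of_injective (Quotient.map' (fun x => (⟨x ^ 2, h3 x⟩ : N))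
        fun x y hxy => ?_) fun x y hxy => ?_
      · rw [QuotientGroup.leftRel_apply] at hxy ⊢
        have : (x⁻¹ * y) ^ 2 ∈ commutator G := hxy
        rw [hsq, mul_mem_cancel_left (hd _ _)] at this
        simpa [mem_subgroupOf] using this
      · obtain ⟨x, rfl⟩ := QuotientGroup.mk_surjective x
        obtain ⟨y, rfl⟩ := QuotientGroup.mk_surjective y
        refine QuotientGroup.eq.2 (show (x⁻¹ * y) ^ 2 ∈ commutator G from ?_)
        rw [hsq, mul_mem_cancel_left (hd _ _)]
        simpa [mem_subgroupOf] using QuotientGroup.eq.1 hxy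
    have e1 := card_mul_index ((commutator G).subgroupOf N)
    rw [Nat.card_congr (subgroupOfEquivOfLe h4).toEquiv] at e1
    have e2 : 2 ≤ ((commutator G).subgroupOf N).index := by
      have : ((commutator G).subgroupOf N).index ≠ 1 := fun e => h7 (relIndex_eq_one.1 e)
      have := index_ne_zero_of_finite (H := (commutator G).subgroupOf N)
      omega
    have e3 := Nat.card_pos (α := commutator G)
    rw [← relIndex_mul_index hNK, ← e1]
    refine (Nat.mul_le_mul h8 h9).trans_lt ?_
    change _ * ((commutator G).subgroupOf N).index < _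
    generalize ((commutator G).subgroupOf N).index = i at *
    rw [mul_pow]
    exact Nat.mul_lt_mul_of_pos_left (by nlinarith) (by positivity)

end H61.Sq
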